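import Cfsg.Agent.H36.K63Spec
import Cfsg.Agent.H32.CliffordCorr
import Cfsg.Agent.H32.Gallagher
import Cfsg.Agent.H40.CopDeg

/-! Tower K63 (S4963): slot L. -/

set_option autoImplicit false

namespace H9.K63L

open Cfsg H28 H32 H36.K63

universe u

theorem classes_le {X E : Type u} [Group X] [Fintype X] [Group E] [Finite E] (K : Subgroup X)
    [K.Normal] [Fintype K] (π : X →* E) (hker : π.ker = K) (hcop : (Nat.card K).Coprime K.index)
    (ζ : IrrCharacter K) :
    Nat.card (ConjClasses ((inertia ζ.1).map π)) ≤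
      Nat.card {χ : IrrCharacter X // classInner (fun n : K => χ.1 n) ζ.1 ≠ 0} := by
  have hKI : K ≤ inertia ζ.1 := le_inertia ζ.2.isClassFunction
  have h0 := isIrrCharacter_subgroupOf hKI ζ.2
  have hi := inertia_subgroupOf hKI ζ.1
  rw [Subgroup.subgroupOf_self] at hi
  obtain ⟨η, h1, h2, -⟩ := H40.exists_canonical_ext_of_coprime (K.subgroupOf (inertia ζ.1))
    (by
      rw [Nat.card_congr (Subgroup.subgroupOfEquivOfLe hKI).toEquiv]
      exact hcop.coprime_dvd_right (Subgroup.relIndex_dvd_index_of_normal _ _)) h0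
    (inertia_eq_top_iff.1 hi)
  have h3 : IsIrrCharacter (K.subgroupOf (inertia ζ.1)) fun n => η n := by
    rw [funext h2]; exact h0
  let f := π.subgroupMap (inertia ζ.1)
  have hf : Function.Surjective f := π.subgroupMap_surjective _
  have hf1 : ∀ g : inertia ζ.1, (g : X) ∈ K → f g = 1 := fun g hg =>
    Subtype.ext (MonoidHom.mem_ker.1 (hker.symm ▸ hg : (g : X) ∈ π.ker))
  have hk : ∀ β : IrrCharacter ((inertia ζ.1).map π),
      K.subgroupOf (inertia ζ.1) ≤ charKer fun x => β.1 (f x) := fun β g hg x => by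
    change β.1 (f (g * x)) = β.1 (f x)
    rw [map_mul, hf1 g hg, one_mul]
  have hψ : ∀ β : IrrCharacter ((inertia ζ.1).map π),
      IsIrrCharacter (inertia ζ.1) ((fun x => β.1 (f x)) * η) := fun β =>
    gallagher_irr h1.isCharacter h3 (β.2.comp_surjective f hf) (hk β)
  have hin : ∀ β : IrrCharacter ((inertia ζ.1).map π),
      classInner (fun n : K => ((fun x => β.1 (f x)) * η) ⟨n, hKI n.2⟩) ζ.1 ≠ 0 := fun β => by
    have e : (fun n : K => ((fun x => β.1 (f x)) * η) ⟨n, hKI n.2⟩) = β.1 1 • ζ.1 := funext fun n => by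
      rw [Pi.mul_apply, hf1 ⟨n, hKI n.2⟩ n.2, h2 ⟨⟨n, hKI n.2⟩, n.2⟩]
      rfl
    rw [e, classInner_smul_left, ζ.2.classInner_self, mul_one]
    exact β.2.apply_one_ne_zero
  rw [← card_irr_eq_card_conjClasses]
  refine Nat.card_le_card_of_injective (fun β =>
    ⟨⟨_, (cliffordCorr_irr ζ.2 rfl hKI (hψ β) (hin β)).1⟩,
      (cliffordCorr_irr ζ.2 rfl hKI (hψ β) (hin β)).2.trans_ne (hin β)⟩) fun β γ e => ?_
  have e1 := cliffordCorr_inj ζ.2 rfl hKI (hψ β) (hψ γ) (hin β) (hin γ)
    (congrArg (fun x => x.1.1) e)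
  have e2 := gallagher_inj h1.isCharacter h3 (β.2.comp_surjective f hf) (γ.2.comp_surjective f hf)
    (hk β) (hk γ) e1
  refine Subtype.ext (funext fun y => ?_)
  obtain ⟨x, rfl⟩ := hf y
  exact congrFun e2 x

theorem job : H36.K63.JobL.{u} := by
  classical
  intro X E _ _ _ _ K _ π hπ hker hcop b
  have := Fintype.ofFinite X
  have := Fintype.ofFinite K
  have := Fintype.ofFinite (IrrCharacter X)
  have hsum : ∀ χ : IrrCharacter X,
      ∑ ζ ∈ b.filter fun ζ => classInner (fun n : K => χ.1 n) ζ.1 ≠ 0,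
        Nat.card ((inertia ζ.1).map π) ≤ Nat.card E := fun χ => by
    set S := b.filter fun ζ => classInner (fun n : K => χ.1 n) ζ.1 ≠ 0 with hS
    rcases S.eq_empty_or_nonempty with h | h
    · rw [h, Finset.sum_empty]; exact Nat.zero_le _
    refine Nat.le_of_mul_le_mul_right ?_ h.card_pos
    rw [Finset.sum_mul, mul_comm, ← smul_eq_mul]
    refine Finset.sum_le_card_nsmul _ _ _ fun ζ hζ => ?_
    rw [← ((inertia ζ.1).map π).card_mul_index, Subgroup.index_map_eq _ hπ
      (hker.le.trans (le_inertia ζ.2.isClassFunction)), ← card_conjSet]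
    refine Nat.mul_le_mul_left _ (Finset.card_le_card_of_injOn (fun φ => φ.1) (fun φ hφ => ?_)
      fun _ _ _ _ e => Subtype.ext e)
    exact mem_conjSet_of_constituent χ.2 ζ.2 φ.2 (Finset.mem_filter.1 hζ).2 (Finset.mem_filter.1 hφ).2
  calc ∑ ζ ∈ b, comm ((inertia ζ.1).map π)
      ≤ ∑ ζ ∈ b, ∑ χ : IrrCharacter X, if classInner (fun n : K => χ.1 n) ζ.1 ≠ 0 then
          Nat.card ((inertia ζ.1).map π) else 0 := Finset.sum_le_sum fun ζ _ => by
        rw [comm_eq, ← Finset.sum_filter, Finset.sum_const, smul_eq_mul, mul_comm,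
          ← Fintype.card_subtype, ← Nat.card_eq_fintype_card]
        exact Nat.mul_le_mul_right _ (classes_le K π hker hcop ζ)
    _ ≤ ∑ _χ : IrrCharacter X, Nat.card E := by
        rw [Finset.sum_comm]
        exact Finset.sum_le_sum fun χ _ => by rw [← Finset.sum_filter]; exact hsum χ
    _ = Nat.card E * Nat.card (ConjClasses X) := by
        rw [Finset.sum_const, smul_eq_mul, mul_comm, Finset.card_univ, ← Nat.card_eq_fintype_card,
          card_irr_eq_card_conjClasses]

end H9.K63L
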