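import Cfsg.Agent.H60.CovSpec
import Cfsg.Agent.H54.SpSimple

/-! Blueprint `COV.md`: the symplectic groups in characteristic two, and the wrap for `Sp₆(3^a)`. -/

set_option autoImplicit false

namespace H9.Cov
open Module (End)
open Cfsg H54 H60.Cov Matrix

section even
variable {l : Type*} [Fintype l] [DecidableEq l] {F : Type*} [Field F]

/-- the quadratic forms with polar form `spB` -/
noncomputable def Q (w x : l ⊕ l → F) : F :=
  ∑ i, x (Sum.inl i) * x (Sum.inr i) + spB l F w x ^ 2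

theorem Q_smul (w x : l ⊕ l → F) (c : F) : Q w (c • x) = c ^ 2 * Q w x := by
  simp only [Q, map_smul, Pi.smul_apply, smul_eq_mul, mul_add, Finset.mul_sum]
  congr 1
  · exact Finset.sum_congr rfl fun i _ => by ring
  · ring

theorem Q_zero (w x : l ⊕ l → F) : Q w x = Q 0 x + spB l F w x ^ 2 := by simp [Q]

variable [CharP F 2]

theorem Q_add (w x y : l ⊕ l → F) : Q w (x + y) = Q w x + Q w y + spB l F x y := by
  have h : (2 : F) = 0 := CharP.cast_eq_zero F 2
  have : ∑ i, (x + y) (Sum.inl i) * (x + y) (Sum.inr i) = ∑ i, x (Sum.inl i) * x (Sum.inr i) +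
      ∑ i, y (Sum.inl i) * y (Sum.inr i) + spB l F x y := by
    rw [spB_eq_sum, ← Finset.sum_add_distrib, ← Finset.sum_add_distrib]
    exact Finset.sum_congr rfl fun i _ => by
      simp only [Pi.add_apply]; linear_combination x (Sum.inl i) * y (Sum.inr i) * h
  rw [Q, this, map_add, Q, Q]
  linear_combination spB l F w x * spB l F w y * h

theorem Q_tv (w v x : l ⊕ l → F) (c : F) :
    Q w (tv v c • x) = Q w x + (c + c ^ 2 * Q w v) * spB l F x v ^ 2 := by
  rw [tv_smul, Q_add, Q_smul, map_smul, smul_eq_mul]; ring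

/-- the stabiliser of the form -/
def St (w : l ⊕ l → F) : Subgroup (symplecticGroup l F) where
  carrier := {g | ∀ x, Q w (g • x) = Q w x}
  one_mem' x := by rw [one_smul]
  mul_mem' ha hb x := by rw [mul_smul, ha, hb]
  inv_mem' {a} ha x := by rw [← ha, smul_inv_smul]

theorem exists_St [Finite F] (g : symplecticGroup l F) : ∃ w, g ∈ St w := by
  have h : (2 : F) = 0 := CharP.cast_eq_zero F 2
  let σ := frobeniusEquiv F 2
  have hσ : ∀ a, σ a = a ^ 2 := fun _ => rfl
  let L : (l ⊕ l → F) →ₗ[F] F :=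
    { toFun := fun x => σ.symm (Q 0 (g • x) + Q 0 x)
      map_add' := fun x y => by
        rw [← map_add, smul_add, Q_add, Q_add, spB_smul]
        exact congrArg _ (by linear_combination spB l F x y * h)
      map_smul' := fun c x => σ.injective (by
        rw [sp_smul_smul, Q_smul, Q_smul, smul_eq_mul, map_mul, σ.apply_symm_apply,
          σ.apply_symm_apply, hσ, RingHom.id_apply, mul_add]) }
  have hL : ∀ x, L x ^ 2 = Q 0 (g • x) + Q 0 x := fun x => σ.apply_symm_apply _
  let D : (l ⊕ l → F) →ₗ[F] (l ⊕ l → F) := DistribMulAction.toLinearMap F _ g - LinearMap.id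
  obtain ⟨μ, hμ⟩ : L ∈ LinearMap.range D.dualMap := by
    rw [LinearMap.range_dualMap_eq_dualAnnihilator_ker, Submodule.mem_dualAnnihilator]
    intro x hx
    have : g • x = x := sub_eq_zero.1 hx
    refine pow_eq_zero_iff two_ne_zero |>.1 ?_
    rw [hL, this]; linear_combination Q 0 x * h
  refine ⟨((spB l F).toDual spB_nondegenerate).symm μ, fun x => ?_⟩
  have e : μ (g • x - x) = L x := LinearMap.congr_fun hμ x
  rw [Q_zero, Q_zero _ x, LinearMap.BilinForm.apply_toDual_symm_apply,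
    LinearMap.BilinForm.apply_toDual_symm_apply]
  rw [map_sub] at e
  linear_combination (μ (g • x) + μ x) * e + (-1 : F) * hL x +
    (L x ^ 2 + μ x * L x - Q 0 x) * h + L x * e

theorem conj_St {w w' : l ⊕ l → F} {d : F} (hd : Q w (w + w') = d ^ 2 + d)
    {g : symplecticGroup l F} (hg : g ∈ St w') : ∃ t, t * g * t⁻¹ ∈ St w := by
  have h : (2 : F) = 0 := CharP.cast_eq_zero F 2
  wlog d0 : d ≠ 0 generalizing d
  · exact this (d := 1) (by rw [hd, not_not.1 d0]; linear_combination -h) one_ne_zero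
  have k : ∀ x, Q w (tv (w + w') d⁻¹ • x) = Q w' x := fun x => by
    rw [Q_tv, hd, Q_zero, Q_zero w', map_add, spB_swap x, spB_swap x]
    field_simp
    linear_combination (spB l F w x ^ 2 * d + spB l F w x * spB l F w' x * d +
      (spB l F w x + spB l F w' x) ^ 2) * h
  exact ⟨tv (w + w') d⁻¹, fun x => by rw [mul_smul, mul_smul, k, hg, ← k, smul_inv_smul]⟩

theorem St_ne [Nontrivial l] (w : l ⊕ l → F) : St w ≠ ⊤ := fun e => by
  have h : (2 : F) = 0 := CharP.cast_eq_zero F 2
  obtain ⟨i, j, ij⟩ := exists_pair_ne l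
  have k : ∀ v, v ≠ 0 → (∀ i, v (Sum.inr i) = 0) → spB l F w v ≠ 0 := fun v h1 h2 h3 => by
    obtain ⟨x, hx⟩ := exists_spB_eq h1 (-1)
    have := e.ge (Subgroup.mem_top (tv v 1)) x
    rw [Q_tv, spB_swap x, hx] at this
    simp [Q, h2, h3] at this
  have a := k (Pi.single (Sum.inl i) 1) (by simp) (by simp)
  refine k (spB l F w (Pi.single (Sum.inl j) 1) • Pi.single (Sum.inl i) 1 -
    spB l F w (Pi.single (Sum.inl i) 1) • Pi.single (Sum.inl j) 1) (fun z => a ?_) (by simp) ?_
  · simpa [ij, ij.symm] using congrFun z (Sum.inl j)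
  · rw [map_sub, map_smul, map_smul, smul_eq_mul, smul_eq_mul, mul_comm, sub_self]

theorem center_le (w : l ⊕ l → F) : Subgroup.center _ ≤ St w := fun g hg x => by
  rcases mem_center_sp_iff.1 hg with rfl | rfl
  · rw [one_smul]
  · rw [spNegOne_smul, ← neg_one_smul F x, Q_smul]; ring

omit [Fintype l] [DecidableEq l] in
theorem add_AS [Finite F] {a b : F} (ha : ¬ ∃ d, d ^ 2 + d = a) (hb : ¬ ∃ d, d ^ 2 + d = b) :
    ∃ d, d ^ 2 + d = a + b := by
  have h : (2 : F) = 0 := CharP.cast_eq_zero F 2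
  let p : F →+ F := AddMonoidHom.mk' (fun d => d ^ 2 + d) fun x y => by linear_combination x * y * h
  have : p.range.index = 2 := by
    rw [AddSubgroup.index_range, Nat.card_eq_two_iff' (0 : p.ker)]
    refine ⟨⟨1, show (1 : F) ^ 2 + 1 = 0 by linear_combination h⟩,
      fun e => one_ne_zero (congrArg Subtype.val e), fun y hy => ?_⟩
    have k : y.1 * (y.1 - 1) = 0 := by
      have : y.1 ^ 2 + y.1 = 0 := y.2
      linear_combination this - y.1 * h
    exact Subtype.ext (sub_eq_zero.1 ((mul_eq_zero.1 k).resolve_left fun z => hy (Subtype.ext z)))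
  exact (AddSubgroup.add_mem_iff_of_index_two this).2 (iff_of_false ha hb)

end even

theorem jobSpE : JobSpE := fun F _ _ m hm ho => by
  have h : (2 : F) = 0 := two_eq_zero_iff_even_card.2 (Nat.not_odd_iff_even.1 ho)
  have : CharP F 2 := CharTwo.of_one_ne_zero_of_two_eq_zero one_ne_zero h
  have : Nontrivial (Fin m) := Fin.nontrivial_iff_two_le.2 hm
  obtain ⟨w1, h1⟩ : ∃ w1 : Fin m ⊕ Fin m → F, ∀ w : Fin m ⊕ Fin m → F,
      (¬ ∃ d, d ^ 2 + d = Q 0 w) → ¬ ∃ d, d ^ 2 + d = Q 0 w1 := by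
    by_cases k : ∃ w : Fin m ⊕ Fin m → F, ¬ ∃ d, d ^ 2 + d = Q 0 w
    · exact k.imp fun w hw _ _ => hw
    · exact ⟨0, fun w hw => absurd ⟨w, hw⟩ k⟩
  refine cov2_quot (St 0) (St w1) (St_ne _) (St_ne _) (center_le _) (center_le _) fun g => ?_
  obtain ⟨w, hw⟩ := exists_St g
  by_cases k : ∃ d, d ^ 2 + d = Q 0 w
  · obtain ⟨d, hd⟩ := k
    exact (conj_St (by rw [zero_add, hd]) hw).imp fun _ => Or.inl
  · obtain ⟨d, hd⟩ := add_AS (h1 w k) k
    refine (conj_St (d := d + spB _ F w1 w) ?_ hw).imp fun _ => Or.inr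
    rw [Q_zero, Q_add, map_add, spB_self]
    linear_combination -hd - d * spB _ F w1 w * h

section six
variable {F V : Type} [Field F] [CharP F 3] [AddCommGroup V] [Module F V] [FiniteDimensional F V]
  {B : LinearMap.BilinForm F V} {δ : F} {k : End F V}

omit [CharP F 3] [FiniteDimensional F V] in
theorem Rt.cube (h : Rt B δ k) (x : V) : k (k (k x)) = k x + δ • x :=
  sub_eq_iff_eq_add'.1 (LinearMap.congr_fun h.2 x)

omit [CharP F 3] [FiniteDimensional F V] in
theorem Rt.no_eig (h : Rt B δ k) (hδ : ∀ c : F, c ^ 3 - c ≠ δ) {x : V} (hx : x ≠ 0) (c : F) :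
    k x ≠ c • x := fun e => by
  have := Rt.cube h x
  simp only [e, map_smul, smul_smul] at this
  refine hδ c (smul_left_injective F hx ?_)
  linear_combination (norm := module) this

/-- the Gram matrix of the frame -/
def gram : Fin 6 → Fin 6 → F :=
  ![![0, 0, 0, 0, 0, 1], ![0, 0, 0, 0, 1, 0], ![0, 0, 0, 1, 0, 1],
    ![0, 0, -1, 0, 0, 0], ![0, -1, 0, 0, 0, 0], ![-1, 0, -1, 0, 0, 0]]

theorem frame (hA : B.IsAlt) (hB : B.Nondegenerate) [Nontrivial V] (hδ : ∀ c : F, c ^ 3 - c ≠ δ)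
    (h : Rt B δ k) : ∃ b : Fin 6 → V, LinearIndependent F b ∧ (∀ i j, B (b i) (b j) = gram i j) ∧
      ∀ i, k (b i) = ![b 1, b 2, b 1 + δ • b 0, b 4, b 5, b 4 + δ • b 3] i := by
  have h3 : (3 : F) = 0 := CharP.cast_eq_zero F 3
  obtain ⟨x, hx⟩ := exists_ne (0 : V)
  have n : k (k x) ∉ Submodule.span F {x, k x} := fun e => by
    obtain ⟨a, b, e⟩ := Submodule.mem_span_pair.1 e
    have c := Rt.cube h x
    rw [← e, map_add, map_smul, map_smul, ← e] at c
    by_cases z : b ^ 2 + a - 1 = 0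
    · refine hδ (-b) (smul_left_injective F hx ?_)
      have : a = 1 - b ^ 2 := by linear_combination z
      subst this
      linear_combination (norm := module) c
    · refine Rt.no_eig h hδ hx ((δ - a * b) / (b ^ 2 + a - 1)) (smul_right_injective V z ?_)
      simp only [smul_smul, mul_div_cancel₀ _ z]
      linear_combination (norm := module) c
  obtain ⟨u, u1, u2⟩ := exists_ortho_ne_zero hB hA.isRefl _ n
  obtain ⟨y, y0, y1, y2⟩ : ∃ y, B x y = 0 ∧ B (k x) y = 0 ∧ B (k (k x)) y = 1 :=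
    ⟨(B (k (k x)) u)⁻¹ • u, by simp [u1 x (Submodule.subset_span (by simp))],
      by simp [u1 (k x) (Submodule.subset_span (by simp))], by simp [u2]⟩
  have y3 : B (k (k (k x))) y = 0 := by rw [Rt.cube h]; simp [y0, y1]
  have y4 : B (k (k (k (k x)))) y = 1 := by rw [Rt.cube h]; simp [y2, y1]
  have s1 : ∀ z, B (k z) z = 0 := fun z => by
    have a := hA.neg_eq z (k z)
    rw [← h.1] at a
    linear_combination -a * 2 + B (k z) z * h3 - 2 * B (k z) z * h3
  have s2 : ∀ z, B (k (k z)) z = 0 := fun z => (h.1 _ _).trans (hA _)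
  have s3 : ∀ z, B (k (k (k z))) z = 0 := fun z => (h.1 _ _).trans (s1 _)
  have s4 : ∀ z, B (k (k (k (k z)))) z = 0 := fun z => (h.1 _ _).trans (s2 _)
  have t0 : B y x = 0 := by rw [← hA.neg_eq, y0, neg_zero]
  have t1 : B (k y) x = 0 := by rw [h.1, ← hA.neg_eq, y1, neg_zero]
  have t2 : B (k (k y)) x = -1 := by rw [h.1, h.1, ← hA.neg_eq, y2]
  have t3 : B (k (k (k y))) x = 0 := by rw [h.1, h.1, h.1, ← hA.neg_eq, y3, neg_zero]
  have t4 : B (k (k (k (k y)))) x = -1 := by rw [h.1, h.1, h.1, h.1, ← hA.neg_eq, y4]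
  have g : ∀ i j, B (![x, k x, k (k x), y, k y, k (k y)] i) (![x, k x, k (k x), y, k y, k (k y)] j) =
      gram i j := fun i j => by
    fin_cases i <;> fin_cases j <;>
      simp [gram, ← h.1, hA.self_eq_zero, s1, s2, s3, s4, y0, y1, y2, y3, y4, t0, t1, t2, t3, t4]
  refine ⟨_, Fintype.linearIndependent_iff.2 fun c hc => ?_, g, fun i => ?_⟩
  · have e : ∀ j, ∑ i, c i * gram i j = 0 := fun j => by
      simpa only [map_sum, map_smul, LinearMap.sum_apply, LinearMap.smul_apply, smul_eq_mul, g,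
        map_zero, LinearMap.zero_apply] using
        congrArg (fun v => B v (![x, k x, k (k x), y, k y, k (k y)] j)) hc
    have e0 := e 0; have e1 := e 1; have e2 := e 2; have e3 := e 3; have e4 := e 4; have e5 := e 5
    simp [Fin.sum_univ_six, gram] at e0 e1 e2 e3 e4 e5
    intro i
    fin_cases i <;> simp_all
  · fin_cases i <;> simp [Rt.cube h]

end six

theorem jobS6W : JobS6W := fun all F _ _ a ha hF => by
  have : CharP F 3 := charP_of_card_eq_prime_pow (p := 3) (hp := ⟨Nat.prime_three⟩) hF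
  obtain ⟨δ, hδ⟩ : ∃ δ : F, ∀ c : F, c ^ 3 - c ≠ δ := by
    by_contra! k
    exact zero_ne_one (Finite.injective_iff_surjective.2 k (a₁ := 0) (a₂ := 1) (by simp))
  set B := spB (Fin 3) F
  let e : Fin 3 ⊕ Fin 3 → (Fin 3 ⊕ Fin 3 → F) := fun i => Pi.single i 1
  let W := Submodule.span F {e (Sum.inr 0), e (Sum.inl 0)}
  let H : Subgroup (symplecticGroup (Fin 3) F) :=
    { carrier := {g | ∀ v ∈ W, g • v ∈ W}
      one_mem' := fun v hv => by rwa [one_smul]
      mul_mem' := fun h1 h2 v hv => by rw [mul_smul]; exact h1 _ (h2 v hv)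
      inv_mem' := fun {g} hg v hv => by
        have : ∀ n : ℕ, g ^ n • v ∈ W := fun n => by
          induction n with
          | zero => rwa [pow_zero, one_smul]
          | succ n ih => rw [pow_succ', mul_smul]; exact hg _ ih
        obtain ⟨n, hn⟩ := mem_powers_iff_mem_zpowers.2 (inv_mem (Subgroup.mem_zpowers g))
        exact hn ▸ this n }
  obtain ⟨k0, h0⟩ : ∃ k0 : End F (Fin 3 ⊕ Fin 3 → F), ∀ k, Rt B δ k → Rt B δ k0 := by
    by_cases k : ∃ k, Rt B δ k
    · exact k.imp fun w hw _ _ => hw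
    · exact ⟨0, fun w hw => absurd ⟨w, hw⟩ k⟩
  let K : Subgroup (symplecticGroup (Fin 3) F) :=
    { carrier := {g | g ∈ H ∧ ¬ Rt B δ k0 ∨
        Rt B δ k0 ∧ ∃ ε : F, ∀ v, g • k0 v = k0 (g • v) + ε • g • v}
      one_mem' := (em (Rt B δ k0)).symm.imp (fun z => ⟨H.one_mem, z⟩) fun z => ⟨z, 0, by simp⟩
      mul_mem' := by
        rintro g h (h1 | ⟨z, ε, h1⟩) (h2 | ⟨z', ε', h2⟩)
        · exact Or.inl ⟨H.mul_mem h1.1 h2.1, h1.2⟩
        · exact absurd z' h1.2
        · exact absurd z h2.2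
        · exact Or.inr ⟨z, ε + ε', fun v => by
            rw [mul_smul, mul_smul, h2, smul_add, h1, sp_smul_smul, add_smul, add_assoc]⟩
      inv_mem' := by
        rintro g (h1 | ⟨z, ε, h1⟩)
        · exact Or.inl ⟨H.inv_mem h1.1, h1.2⟩
        · exact Or.inr ⟨z, -ε, fun v => by
            rw [inv_smul_eq_iff, smul_add, h1, sp_smul_smul, smul_inv_smul]; simp⟩ }
  have hH : H ≠ ⊤ := fun z => by
    obtain ⟨g, hg⟩ := sp_exists_smul_eq (v := e (Sum.inl 0)) (w := e (Sum.inl 1)) (by simp [e])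
      (by simp [e])
    obtain ⟨p, q, r⟩ := Submodule.mem_span_pair.1
      (hg ▸ z.ge (Subgroup.mem_top g) _ (Submodule.subset_span (by simp)))
    simpa [e] using congrFun r (Sum.inl 1)
  have zH : Subgroup.center _ ≤ H := fun g hg v hv => by
    rcases mem_center_sp_iff.1 hg with rfl | rfl
    · rwa [one_smul]
    · rw [spNegOne_smul]; exact neg_mem hv
  refine cov2_quot H K hH (fun z => ?_) zH (fun g hg => ?_) fun g => ?_
  · rcases z.ge (Subgroup.mem_top (tv (e (Sum.inl 0)) 1)) with y | ⟨y, ε, h1⟩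
    · exact hH (eq_top_iff.2 fun g _ =>
        ((z.ge (Subgroup.mem_top g)).resolve_right fun t => y.2 t.1).1)
    · have a1 := congrFun (h1 (e (Sum.inl 1))) (Sum.inl 1)
      have a2 := h1 (e (Sum.inr 0))
      simp [tv_smul, e, spB_single_inl_inl] at a1
      simp only [tv_smul, a1, zero_smul, add_zero, map_add, map_smul, add_right_inj, e,
        spB_single_inr_left, Pi.single_eq_same, mul_one, one_smul] at a2
      exact Rt.no_eig y hδ (by simp) _ a2.symm
  · refine (em (Rt B δ k0)).symm.imp (fun z => ⟨zH hg, z⟩) fun z => ⟨z, 0, fun v => ?_⟩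
    rcases mem_center_sp_iff.1 hg with rfl | rfl <;> simp [spNegOne_smul]
  · rcases all F _ B spB_isAlt spB_nondegenerate (by simp) (DistribMulAction.toLinearMap F _ g) δ hδ
      (spB_smul g) with ⟨x, y, h1, h2, h3⟩ | ⟨k, ε, h1, h2⟩
    · have b : B x ((B x y)⁻¹ • y) = B (e (Sum.inr 0)) (e (Sum.inl 0)) := by
        simp [h1, e, B, spB_single_inr_left]
      have b' : B x ((B x y)⁻¹ • y) ≠ 0 := by simp [h1]
      obtain ⟨t, t1, t2⟩ := sp_witt_pair (linearIndependent_pair_of_spB_ne_zero b')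
        (linearIndependent_pair_of_spB_ne_zero (b ▸ b')) b
      rw [sp_smul_smul] at t2
      have m : ∀ v ∈ Submodule.span F {x, y}, t • v ∈ W := fun v hv => by
        obtain ⟨p, q, rfl⟩ := Submodule.mem_span_pair.1 hv
        exact Submodule.mem_span_pair.2 ⟨p, q * B x y, by
          rw [← t1, ← t2, smul_smul, mul_inv_cancel_right₀ h1, smul_add, sp_smul_smul, sp_smul_smul]⟩
      refine ⟨t, Or.inl fun v hv => ?_⟩
      obtain ⟨p, q, rfl⟩ := Submodule.mem_span_pair.1 hv
      rw [← t1, ← t2, mul_smul, mul_smul]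
      refine m _ ?_
      simp only [smul_add, sp_smul_smul, inv_smul_smul]
      exact add_mem (Submodule.smul_mem _ _ h2) (Submodule.smul_mem _ _ (Submodule.smul_mem _ _ h3))
    · obtain ⟨b, b1, b2, b3⟩ := frame spB_isAlt spB_nondegenerate hδ h1
      obtain ⟨c, c1, c2, c3⟩ := frame spB_isAlt spB_nondegenerate hδ (h0 k h1)
      obtain ⟨t, ht⟩ := sp_witt b c b1 c1 fun i j => (b2 i j).trans (c2 i j).symm
      have m : ∀ v, t • k v = k0 (t • v) := LinearMap.congr_fun
        (LinearMap.ext_on_range (f := DistribMulAction.toLinearMap F _ t ∘ₗ k)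
          (g := k0 ∘ₗ DistribMulAction.toLinearMap F _ t)
          (b1.span_eq_top_of_card_eq_finrank' (by simp)) fun i => by
            show t • k (b i) = k0 (t • b i)
            rw [ht, b3, c3]
            fin_cases i <;> simp [ht, sp_smul_smul])
      refine ⟨t, Or.inr (Or.inr ⟨h0 k h1, ε, fun v => ?_⟩)⟩
      obtain ⟨v, rfl⟩ := MulAction.surjective t v
      have n : g • k v = k (g • v) + ε • g • v := LinearMap.congr_fun h2 v
      simp only [← m, mul_smul, inv_smul_smul, n, smul_add, sp_smul_smul]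

end H9.Cov
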