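import Cfsg.Agent.H5.FrobCompl

/-! The class number of a complement, from the class number of the split extension. -/

set_option autoImplicit false

namespace H9.KGV

open Subgroup

variable {X : Type*} [Group X] [Finite X] {V G : Subgroup X}

omit [Finite X] in
theorem map_inj [V.Normal] (hGV : IsComplement' V G) :
    Function.Injective (ConjClasses.map G.subtype) := by
  intro c c' h
  obtain ⟨g, rfl⟩ := ConjClasses.mk_surjective c
  obtain ⟨g', rfl⟩ := ConjClasses.mk_surjective c'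
  obtain ⟨x, hx⟩ := isConj_iff.1 (ConjClasses.mk_eq_mk_iff_isConj.1 h : IsConj (g : X) (g' : X))
  obtain ⟨⟨v, k⟩, rfl⟩ := hGV.2 x
  refine ConjClasses.mk_eq_mk_iff_isConj.2 (isConj_iff.2 ⟨k, Subtype.ext ?_⟩)
  have e : (g' : X) * ((k : X) * g * (k : X)⁻¹)⁻¹ =
      v * (((k : X) * g * (k : X)⁻¹) * (v : X)⁻¹ * ((k : X) * g * (k : X)⁻¹)⁻¹) := by
    rw [← hx]; group
  have h1 : (g' : X) * ((k : X) * g * (k : X)⁻¹)⁻¹ = 1 := disjoint_def.1 hGV.disjoint
    (e ▸ mul_mem v.2 (Normal.conj_mem inferInstance _ (inv_mem v.2) _))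
    (mul_mem g'.2 (inv_mem (mul_mem (mul_mem k.2 g.2) (inv_mem k.2))))
  exact (mul_inv_eq_one.1 h1).symm

theorem card_add_le [V.Normal] (hGV : IsComplement' V G) {p : ℕ} (hidx : ¬ p ∣ V.index)
    (S : Set (ConjClasses X)) (hS : ∀ c ∈ S, ∃ x, ConjClasses.mk x = c ∧ p ∣ orderOf x) :
    Nat.card (ConjClasses G) + S.ncard ≤ Nat.card (ConjClasses X) := by
  have hd : Disjoint (Set.range (ConjClasses.map G.subtype)) S := by
    rw [Set.disjoint_left]
    rintro _ ⟨c, rfl⟩ hc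
    obtain ⟨g, rfl⟩ := ConjClasses.mk_surjective c
    obtain ⟨x, hx, hp⟩ := hS _ hc
    obtain ⟨y, hy⟩ := isConj_iff.1 (ConjClasses.mk_eq_mk_iff_isConj.1 hx : IsConj x (g : X))
    have e : orderOf (g : X) = orderOf x := by
      rw [← hy]; exact (MulAut.conj y).orderOf_eq x
    rw [← e, orderOf_coe] at hp
    exact hidx (hGV.symm.index_eq_card ▸ hp.trans (orderOf_dvd_natCard g))
  rw [← Set.ncard_range_of_injective (map_inj hGV), ← Set.ncard_union_eq hd]
  exact Set.ncard_le_card _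

theorem card_classes_of_comm {A : Type*} [Group A] (h : ∀ a b : A, a * b = b * a) :
    Nat.card (ConjClasses A) = Nat.card A :=
  (Nat.card_congr (Equiv.ofBijective ConjClasses.mk ⟨fun a b e => by
    obtain ⟨c, hc⟩ := isConj_iff.1 (ConjClasses.mk_eq_mk_iff_isConj.1 e)
    rw [← hc, h c a, mul_inv_cancel_right], ConjClasses.mk_surjective⟩)).symm

theorem singer (p : ℕ) [hp : Fact p.Prime] (V : Subgroup X) [V.Normal] (hVexp : ∀ v ∈ V, v ^ p = 1)
    (hidx : ¬ p ∣ V.index) (hself : centralizer (V : Set X) = V) (hV : V ≠ ⊥) (G : Subgroup X)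
    (hGV : IsComplement' V G) (hk : Nat.card (ConjClasses X) ≤ Nat.card V) :
    Nat.card (ConjClasses G) ≤ Nat.card V - 1 ∧ (Nat.card (ConjClasses G) = Nat.card V - 1 ↔
      (IsCyclic G ∧ ∀ v ∈ V, ∀ w ∈ V, v ≠ 1 → w ≠ 1 → ∃ g ∈ G, g * v * g⁻¹ = w)) := by
  obtain ⟨⟨v₀, hv₀⟩, h0⟩ := ne_bot_iff_exists_ne_one.1 hV
  have h0 : v₀ ≠ 1 := fun e => h0 (Subtype.ext e)
  have ho : ∀ v ∈ V, v ≠ 1 → orderOf v = p := fun v hv h1 => orderOf_eq_prime (hVexp v hv) h1
  have h1 := card_add_le hGV hidx {ConjClasses.mk v₀} (by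
    rintro _ rfl; exact ⟨v₀, rfl, (ho v₀ hv₀ h0).symm.dvd⟩)
  rw [Set.ncard_singleton] at h1
  have hc : Nat.card ((V : Set X) \ {1} : Set X) = Nat.card V - 1 := by
    rw [Nat.card_coe_set_eq, Set.ncard_diff_singleton_of_mem (one_mem V : (1 : X) ∈ (V : Set X))]
    rfl
  let f : G → ((V : Set X) \ {1} : Set X) := fun g =>
    ⟨g * v₀ * (g : X)⁻¹, Normal.conj_mem inferInstance _ hv₀ _, fun e => h0 (by
      have e' : (g : X) * v₀ * (g : X)⁻¹ = 1 := e
      simpa using e')⟩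
  refine ⟨by omega, fun he => ?_, fun ⟨hcyc, htr⟩ => ?_⟩
  · have hconj : ∀ x y : X, p ∣ orderOf x → p ∣ orderOf y → IsConj x y := fun x y hx hy => by
      by_contra hn
      have h2 := card_add_le hGV hidx {ConjClasses.mk x, ConjClasses.mk y} (by
        rintro _ (rfl | rfl)
        · exact ⟨x, rfl, hx⟩
        · exact ⟨y, rfl, hy⟩)
      rw [Set.ncard_pair fun e => hn (ConjClasses.mk_eq_mk_iff_isConj.1 e)] at h2
      omega
    have hfpf : ∀ a ∈ G, a ≠ 1 → V ⊓ centralizer {a} = ⊥ := fun a ha a1 => by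
      refine eq_bot_iff.2 fun v hv => ?_
      by_contra v1
      have hcm : Commute a v := mem_centralizer_iff.1 hv.2 a rfl
      have h2 : p ∣ orderOf (a * v) := by
        have h3 := pow_orderOf_eq_one (a * v)
        rw [hcm.mul_pow] at h3
        have h4 : v ^ orderOf (a * v) = 1 := disjoint_def.1 hGV.disjoint (pow_mem hv.1 _)
          (eq_inv_of_mul_eq_one_right h3 ▸ inv_mem (pow_mem ha _))
        exact ho v hv.1 v1 ▸ orderOf_dvd_of_pow_eq_one h4
      obtain ⟨c, hc⟩ := isConj_iff.1 (hconj v _ (ho v hv.1 v1).symm.dvd h2)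
      have h5 : a * v ∈ V := hc ▸ Normal.conj_mem inferInstance _ hv.1 _
      exact a1 (disjoint_def.1 hGV.disjoint ((V.mul_mem_cancel_right hv.1).1 h5) ha)
    have hf : Function.Injective f := fun g g' e => by
      have e1 : (g : X) * v₀ * (g : X)⁻¹ = g' * v₀ * (g' : X)⁻¹ := congrArg Subtype.val e
      by_contra hne
      have h2 : v₀ ∈ V ⊓ centralizer {(g' : X)⁻¹ * g} := ⟨hv₀, mem_centralizer_iff.2 (by
        rintro _ rfl
        calc (g' : X)⁻¹ * g * v₀ = (g' : X)⁻¹ * (g * v₀ * (g : X)⁻¹) * g := by group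
          _ = v₀ * ((g' : X)⁻¹ * g) := by rw [e1]; group)⟩
      rw [hfpf _ (mul_mem (inv_mem g'.2) g.2) fun e2 =>
        hne (Subtype.ext (inv_mul_eq_one.1 e2).symm)] at h2
      exact h0 h2
    have h2 := Nat.card_le_card_of_injective f hf
    have hb : Function.Bijective (ConjClasses.mk : G → ConjClasses G) :=
      ConjClasses.mk_surjective.bijective_of_nat_card_le (by omega)
    haveI : IsMulCommutative G := ⟨⟨fun a b => by
      have h3 := hb.1 (ConjClasses.mk_eq_mk_iff_isConj.2 (isConj_iff.2 ⟨a, rfl⟩ : IsConj b (a * b * a⁻¹)))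
      exact (eq_mul_inv_iff_mul_eq.1 h3).symm⟩⟩
    refine ⟨H5.isCyclic_of_fpf_of_comm hV (le_normalizer_of_normal) hfpf, fun v hv w hw v1 w1 => ?_⟩
    obtain ⟨x, hx⟩ := isConj_iff.1 (hconj v w (ho v hv v1).symm.dvd (ho w hw w1).symm.dvd)
    obtain ⟨⟨u, k⟩, rfl⟩ := hGV.2 x
    refine ⟨k, k.2, ?_⟩
    have h3 : (u : X) ∈ centralizer (V : Set X) := hself.symm ▸ u.2
    have h4 := mem_centralizer_iff.1 h3 _ (Normal.conj_mem inferInstance _ hv (k : X))
    calc (k : X) * v * (k : X)⁻¹ = (k * v * (k : X)⁻¹ * u) * (u : X)⁻¹ := by group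
      _ = w := by rw [h4, ← hx]; group
  · have hf : Function.Surjective f := by
      rintro ⟨w, hw, w1⟩
      obtain ⟨g, hg, e⟩ := htr v₀ hv₀ w hw h0 w1
      exact ⟨⟨g, hg⟩, Subtype.ext e⟩
    have h2 := Nat.card_le_card_of_surjective f hf
    have h3 := card_classes_of_comm (A := G) hcyc.commGroup.mul_comm
    omega

end H9.KGV
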