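import Cfsg.Agent.H2.KpSpec

/-! Tower KP (S4202): the top inequality for large degree. -/

set_option autoImplicit false

namespace H9.KpCT
open H2.Kp

theorem mono {u V : ℕ} (h1 : 5 * u ≤ 2 * V) (h : ℕ) (h5 : 5 ≤ h) :
    h ^ 5 * u ^ h * V ^ 5 ≤ 3125 * u ^ 5 * V ^ h := by
  induction h, h5 using Nat.le_induction with
  | base => norm_num
  | succ n hn ih =>
    have a : 5 * (n + 1) ≤ 6 * n := by omega
    have b : 2 * (n + 1) ^ 5 ≤ 5 * n ^ 5 := by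
      have := Nat.pow_le_pow_left a 5
      rw [mul_pow, mul_pow] at this
      omega
    have c : (n + 1) ^ 5 * u ≤ n ^ 5 * V := by
      have := Nat.mul_le_mul b h1
      have e1 : 2 * (n + 1) ^ 5 * (5 * u) = 10 * ((n + 1) ^ 5 * u) := by ring
      have e2 : 5 * n ^ 5 * (2 * V) = 10 * (n ^ 5 * V) := by ring
      omega
    calc (n + 1) ^ 5 * u ^ (n + 1) * V ^ 5 = (n + 1) ^ 5 * u * (u ^ n * V ^ 5) := by ring
      _ ≤ n ^ 5 * V * (u ^ n * V ^ 5) := Nat.mul_le_mul_right _ c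
      _ = n ^ 5 * u ^ n * V ^ 5 * V := by ring
      _ ≤ 3125 * u ^ 5 * V ^ n * V := Nat.mul_le_mul_right _ ih
      _ = _ := by ring

theorem core {u V A B h r t k k1 k2 : ℕ} (h0 : 0 < V) (h1 : 5 * u ≤ 2 * V) (h2 : V ≤ 81)
    (h3 : 96 * 3125 * (11 * B + A) ^ 4 * u ^ 5 ≤ 10 ^ 4 * V ^ (t + 6)) (h5 : 5 ≤ h)
    (m1 : 110 ≤ h + r) (m2 : h + r ≤ 6 * h ^ 2)
    (a1 : k1 ^ 4 * (h + r + 1) ^ 3 ≤ h ^ 3 * u ^ h * V ^ (r + 1))
    (a2 : k2 ^ 4 * (h + r) ^ 3 ≤ h ^ 3 * u ^ h * V ^ r)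
    (a3 : k ≤ A * k1 + B * ((h + r + 1) * k2)) : 16 * k ^ 4 ≤ V ^ (h + r + t + 1) := by
  have mo := mono h1 h h5
  obtain ⟨M, hM⟩ : ∃ M, M = h + r := ⟨_, rfl⟩
  obtain ⟨P, hP⟩ : ∃ P, P = h ^ 3 * u ^ h * V ^ r := ⟨_, rfl⟩
  obtain ⟨β, hβ⟩ : ∃ β, β = 11 * B + A := ⟨_, rfl⟩
  rw [pow_succ V, ← mul_assoc, ← hP] at a1
  rw [← hM] at m1 m2 a1 a2 a3
  rw [← hP] at a2
  rw [← hβ] at h3
  obtain ⟨z, z1, z2, z3⟩ : ∃ z, k1 ≤ z ∧ 3 * k2 ≤ z ∧ z ^ 4 * M ^ 3 ≤ 81 * P := by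
    rcases le_total k1 (3 * k2) with s | s
    · exact ⟨_, s, le_rfl, by rw [mul_pow, mul_assoc]; omega⟩
    · refine ⟨_, le_rfl, s, ?_⟩
      calc k1 ^ 4 * M ^ 3 ≤ k1 ^ 4 * (M + 1) ^ 3 := by gcongr; omega
        _ ≤ P * V := a1
        _ ≤ P * 81 := Nat.mul_le_mul_left _ h2
        _ = _ := mul_comm _ _
  have b1 : 10 * (3 * A + B * (M + 1)) ≤ β * M := by
    have := Nat.mul_le_mul_left A m1
    have := Nat.mul_le_mul_left B m1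
    rw [hβ]; nlinarith
  have b2 : 30 * k ≤ β * M * z :=
    calc 30 * k ≤ 30 * (A * k1 + B * ((M + 1) * k2)) := Nat.mul_le_mul_left _ a3
      _ = 10 * (3 * A * k1 + B * (M + 1) * (3 * k2)) := by ring
      _ ≤ 10 * (3 * A * z + B * (M + 1) * z) := by gcongr
      _ = 10 * (3 * A + B * (M + 1)) * z := by ring
      _ ≤ _ := Nat.mul_le_mul_right _ b1
  have b3 : 10 ^ 4 * k ^ 4 ≤ β ^ 4 * M * P := by
    have e : 81 * (10 ^ 4 * k ^ 4) ≤ 81 * (β ^ 4 * M * P) :=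
      calc 81 * (10 ^ 4 * k ^ 4) = (30 * k) ^ 4 := by ring
        _ ≤ (β * M * z) ^ 4 := Nat.pow_le_pow_left b2 4
        _ = β ^ 4 * M * (z ^ 4 * M ^ 3) := by ring
        _ ≤ β ^ 4 * M * (81 * P) := Nat.mul_le_mul_left _ z3
        _ = _ := by ring
    omega
  refine Nat.le_of_mul_le_mul_left (c := 10 ^ 4 * V ^ 5) ?_ (by positivity)
  calc 10 ^ 4 * V ^ 5 * (16 * k ^ 4) = 16 * V ^ 5 * (10 ^ 4 * k ^ 4) := by ring
    _ ≤ 16 * V ^ 5 * (β ^ 4 * (6 * h ^ 2) * P) :=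
      Nat.mul_le_mul_left _ (b3.trans (by gcongr))
    _ = 96 * β ^ 4 * V ^ r * (h ^ 5 * u ^ h * V ^ 5) := by rw [hP]; ring
    _ ≤ 96 * β ^ 4 * V ^ r * (3125 * u ^ 5 * V ^ h) := Nat.mul_le_mul_left _ mo
    _ = 96 * 3125 * β ^ 4 * u ^ 5 * V ^ (h + r) := by ring
    _ ≤ 10 ^ 4 * V ^ (t + 6) * V ^ (h + r) := Nat.mul_le_mul_right _ h3
    _ = _ := by ring

theorem jobCT : CT := by
  intro w h c t k k1 k2 hw h5 c1 c2 c3 t1 t6 a1 a2 a3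
  have hh : h + 7 ≤ c := by
    obtain ⟨j, rfl⟩ : ∃ j, h = j + 1 := ⟨h - 1, by omega⟩
    rw [Nat.add_sub_cancel] at c3
    nlinarith
  obtain ⟨r, rfl⟩ : ∃ r, c = h + r + t + 1 := ⟨c - h - t - 1, by omega⟩
  have e1 : h + r + t + 1 - t = h + r + 1 := by omega
  rw [e1] at a1 a2 a3
  rw [Cn, show h + r + 1 - h = r + 1 by omega] at a1
  rw [Nat.add_sub_cancel, Cn, Nat.add_sub_cancel_left] at a2
  have n3 : 96 * 3125 * (11 * cB w t + cA w t) ^ 4 * (w ^ 4) ^ 5 ≤ 10 ^ 4 * (9 ^ w) ^ (t + 6) := by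
    rcases hw with rfl | rfl <;> interval_cases t <;> decide +kernel
  have := core (by positivity) (by rcases hw with rfl | rfl <;> decide)
    (by rcases hw with rfl | rfl <;> decide) n3 h5 (by omega) (by omega) a1 a2 a3
  refine (Nat.pow_le_pow_iff_left (n := 2) (by decide)).1 ?_
  calc (4 * k ^ 2) ^ 2 = 16 * k ^ 4 := by ring
    _ ≤ _ := this
    _ = _ := by rw [← pow_mul, ← pow_mul, mul_comm _ 2, pow_mul 3 2]; rfl

end H9.KpCT
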