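import Cfsg.Agent.Base

/-! Local lemma for the uniqueness of the strongly regular graph (77, 16, 0, 4): fifteen
vectors of norm one forming a tight frame are the sums of pairs of six orthogonal vectors. -/

set_option autoImplicit false
set_option linter.unusedSectionVars false

namespace H9.S77

open Finset

structure Loc {E ι : Type*} [AddCommGroup E] [Module ℚ E] (B : E →ₗ[ℚ] E →ₗ[ℚ] ℚ)
    (Y : Finset ι) (ρ : ι → E) (v : E) : Prop where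
  symm : ∀ a b, B a b = B b a
  pd : ∀ a, B a a = 0 → a = 0
  vv : B v v = 3
  rv : ∀ y ∈ Y, B (ρ y) v = 1
  rr : ∀ y ∈ Y, B (ρ y) (ρ y) = 1
  val : ∀ y ∈ Y, ∀ z ∈ Y, B (ρ y) (ρ z) = 0 ∨ B (ρ y) (ρ z) = 1 / 2 ∨ B (ρ y) (ρ z) = 1
  frame : ∀ a b, ∑ w ∈ Y, B a (ρ w) * B b (ρ w) = 8 * B a b + 4 * B a v * B b v

variable {E ι : Type*} [AddCommGroup E] [Module ℚ E] {B : E →ₗ[ℚ] E →ₗ[ℚ] ℚ}
  {Y : Finset ι} {ρ : ι → E} {v : E}

namespace Loc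

theorem eq_of (h : Loc B Y ρ v) {a b : E} {c : ℚ} (h1 : B a a = c) (h2 : B b b = c)
    (h3 : B a b = c) : a = b :=
  sub_eq_zero.1 (h.pd _ (by simp [h1, h2, h3, h.symm b a]))

theorem vr (h : Loc B Y ρ v) {y : ι} (hy : y ∈ Y) : B v (ρ y) = 1 := by
  rw [h.symm, h.rv y hy]

theorem one (h : Loc B Y ρ v) {y z : ι} (hy : y ∈ Y) (hz : z ∈ Y) (h1 : B (ρ y) (ρ z) = 1)
    (a : E) : B a (ρ z) = B a (ρ y) := by
  rw [h.eq_of (h.rr y hy) (h.rr z hz) h1]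

theorem ortho3 (h : Loc B Y ρ v) {x y z : ι} (hx : x ∈ Y) (hy : y ∈ Y) (hz : z ∈ Y)
    (h1 : B (ρ x) (ρ y) = 0) (h2 : B (ρ x) (ρ z) = 0) (h3 : B (ρ y) (ρ z) = 0) :
    ρ x + ρ y + ρ z = v := by
  refine h.eq_of (c := 3) ?_ h.vv ?_
  · simp [h1, h2, h3, h.symm (ρ y) (ρ x), h.symm (ρ z) (ρ x), h.symm (ρ z) (ρ y), h.rr x hx,
      h.rr y hy, h.rr z hz]
    norm_num
  · simp [h.rv x hx, h.rv y hy, h.rv z hz]
    norm_num

theorem ortho3' (h : Loc B Y ρ v) {x y z t : ι} (hx : x ∈ Y) (hy : y ∈ Y) (hz : z ∈ Y)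
    (ht : t ∈ Y) (h1 : B (ρ x) (ρ y) = 0) (h2 : B (ρ x) (ρ z) = 0) (h3 : B (ρ y) (ρ z) = 0) :
    B (ρ t) (ρ x) + B (ρ t) (ρ y) + B (ρ t) (ρ z) = 1 := by
  rw [← h.rv t ht, ← h.ortho3 hx hy hz h1 h2 h3]; simp

theorem s0 (h : Loc B Y ρ v) : ∑ _w ∈ Y, (1 : ℚ) = 60 := by
  have := h.frame v v
  rw [h.vv, sum_congr rfl (fun w hw => by rw [h.vr hw, mul_one])] at this
  rw [this]; norm_num

theorem s1 (h : Loc B Y ρ v) (a : E) : ∑ w ∈ Y, B a (ρ w) = 20 * B a v := by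
  have := h.frame a v
  rw [h.vv, sum_congr rfl (fun w hw => by rw [h.vr hw, mul_one])] at this
  rw [this]; ring

/-- the number of vertices of a class -/
theorem scl (h : Loc B Y ρ v) {y : ι} (hy : y ∈ Y) :
    ∑ w ∈ Y, B (ρ y) (ρ w) * (2 * B (ρ y) (ρ w) - 1) = 4 := by
  have e : ∑ w ∈ Y, B (ρ y) (ρ w) * (2 * B (ρ y) (ρ w) - 1) =
      2 * ∑ w ∈ Y, B (ρ y) (ρ w) * B (ρ y) (ρ w) - ∑ w ∈ Y, B (ρ y) (ρ w) := by
    rw [mul_sum, ← sum_sub_distrib]; exact sum_congr rfl fun w _ => by ring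
  rw [e, h.frame, h.s1, h.rr y hy, h.rv y hy]; norm_num

theorem sind (h : Loc B Y ρ v) {y z : ι} (hy : y ∈ Y) (hz : z ∈ Y) :
    ∑ w ∈ Y, (1 - 2 * B (ρ y) (ρ w)) * (1 - 2 * B (ρ z) (ρ w)) = 32 * B (ρ y) (ρ z) - 4 := by
  have e : ∑ w ∈ Y, (1 - 2 * B (ρ y) (ρ w)) * (1 - 2 * B (ρ z) (ρ w)) =
      ∑ _w ∈ Y, (1 : ℚ) - 2 * ∑ w ∈ Y, B (ρ y) (ρ w) - 2 * ∑ w ∈ Y, B (ρ z) (ρ w) +
        4 * ∑ w ∈ Y, B (ρ y) (ρ w) * B (ρ z) (ρ w) := by
    simp only [mul_sum, ← sum_sub_distrib, ← sum_add_distrib]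
    exact sum_congr rfl fun w _ => by ring
  rw [e, h.frame, h.s1, h.s1, h.s0, h.rv y hy, h.rv z hz]; ring

theorem line (h : Loc B Y ρ v) {y z : ι} (hy : y ∈ Y) (hz : z ∈ Y) (h0 : B (ρ y) (ρ z) = 0) :
    ∃ w ∈ Y, ρ w = v - ρ y - ρ z := by
  have e : ∑ w ∈ Y, ((1 - 2 * B (ρ y) (ρ w)) * (1 - 2 * B (ρ z) (ρ w)) +
      B (ρ y) (ρ w) * (2 * B (ρ y) (ρ w) - 1) + B (ρ z) (ρ w) * (2 * B (ρ z) (ρ w) - 1)) ≠ 0 := by
    rw [sum_add_distrib, sum_add_distrib, h.sind hy hz, h.scl hy, h.scl hz, h0]; norm_num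
  obtain ⟨w, hw, hne⟩ := exists_ne_zero_of_sum_ne_zero e
  have f1 := fun h1 => h.one hy hw h1 (ρ z)
  have f2 := fun h1 => h.one hz hw h1 (ρ y)
  rw [h.symm (ρ z) (ρ y), h0] at f1
  rw [h0] at f2
  have : B (ρ y) (ρ w) = 0 ∧ B (ρ z) (ρ w) = 0 := by
    rcases h.val y hy w hw with a | a | a <;> rcases h.val z hz w hw with b | b | b <;>
      simp_all <;> norm_num at hne
  exact ⟨w, hw, by rw [← h.ortho3 hy hz hw h0 this.1 this.2]; abel⟩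

theorem var (h : Loc B Y ρ v) {f : E} (h1 : B f f = 1 / 2) (h2 : B f v = 1 / 2) :
    ∑ w ∈ Y, B f (ρ w) * (B f (ρ w) - 1 / 2) = 0 := by
  have e : ∑ w ∈ Y, B f (ρ w) * (B f (ρ w) - 1 / 2) =
      ∑ w ∈ Y, B f (ρ w) * B f (ρ w) - 1 / 2 * ∑ w ∈ Y, B f (ρ w) := by
    rw [mul_sum, ← sum_sub_distrib]; exact sum_congr rfl fun w _ => by ring
  rw [e, h.frame, h.s1, h1, h2]; norm_num

theorem var1 (h : Loc B Y ρ v) {f : E} (h1 : B f f = 1 / 2) (h2 : B f v = 1 / 2)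
    (h3 : ∀ w ∈ Y, 0 ≤ B f (ρ w) ∧ B f (ρ w) ≤ 1 / 2) :
    ∀ w ∈ Y, B f (ρ w) = 0 ∨ B f (ρ w) = 1 / 2 := by
  intro w hw
  have := (sum_eq_zero_iff_of_nonpos (fun w hw => mul_nonpos_of_nonneg_of_nonpos (h3 w hw).1
    (sub_nonpos.2 (h3 w hw).2))).1 (h.var h1 h2) w hw
  simpa [sub_eq_zero] using this

theorem var2 (h : Loc B Y ρ v) {f : E} (h1 : B f f = 1 / 2) (h2 : B f v = 1 / 2)
    (h3 : ∀ w ∈ Y, ∃ n : ℤ, B f (ρ w) = n / 2) :
    ∀ w ∈ Y, B f (ρ w) = 0 ∨ B f (ρ w) = 1 / 2 := by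
  intro w hw
  have := (sum_eq_zero_iff_of_nonneg (fun w hw => by
    obtain ⟨n, hn⟩ := h3 w hw
    rw [hn]
    have : (0 : ℤ) ≤ n * (n - 1) := by
      rcases le_or_gt n 0 with a | a
      · exact mul_nonneg_of_nonpos_of_nonpos a (by omega)
      · exact mul_nonneg a.le (by omega)
    have : (0 : ℚ) ≤ n * (n - 1) := by exact_mod_cast this
    nlinarith)).1 (h.var h1 h2) w hw
  simpa [sub_eq_zero] using this

theorem norm_half (h : Loc B Y ρ v) {f : E} (h2 : B f v = 1 / 2)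
    (h3 : ∀ w ∈ Y, B f (ρ w) = 0 ∨ B f (ρ w) = 1 / 2) : B f f = 1 / 2 := by
  have e : ∑ w ∈ Y, B f (ρ w) * B f (ρ w) = 1 / 2 * ∑ w ∈ Y, B f (ρ w) := by
    rw [mul_sum]
    exact sum_congr rfl fun w hw => by rcases h3 w hw with a | a <;> rw [a] <;> norm_num
  rw [h.frame, h.s1, h2] at e
  linarith

theorem ge_of (h : Loc B Y ρ v) {f g : E} (h2 : B f v = 1 / 2)
    (h3 : ∀ w ∈ Y, B f (ρ w) = 0 ∨ B f (ρ w) = 1 / 2) (h4 : B g v = 1 / 2)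
    (h5 : ∀ w ∈ Y, B g (ρ w) = 0 ∨ B g (ρ w) = 1 / 2) : -1 / 8 ≤ B f g := by
  have e : 0 ≤ ∑ w ∈ Y, B f (ρ w) * B g (ρ w) := sum_nonneg fun w hw => by
    rcases h3 w hw with a | a <;> rcases h5 w hw with b | b <;> rw [a, b] <;> norm_num
  rw [h.frame, h2, h4] at e
  linarith

theorem exists_half (h : Loc B Y ρ v) : ∃ a ∈ Y, ∃ b ∈ Y, B (ρ a) (ρ b) = 1 / 2 := by
  obtain ⟨a, ha, -⟩ := exists_ne_zero_of_sum_ne_zero (s := Y) (f := fun _ => (1 : ℚ))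
    (by rw [h.s0]; norm_num)
  have e : ∑ w ∈ Y, B (ρ a) (ρ w) * (1 - B (ρ a) (ρ w)) =
      ∑ w ∈ Y, B (ρ a) (ρ w) - ∑ w ∈ Y, B (ρ a) (ρ w) * B (ρ a) (ρ w) := by
    rw [← sum_sub_distrib]; exact sum_congr rfl fun w _ => by ring
  rw [h.frame, h.s1, h.rr a ha, h.rv a ha] at e
  obtain ⟨b, hb, hne⟩ := exists_ne_zero_of_sum_ne_zero (s := Y)
    (f := fun w => B (ρ a) (ρ w) * (1 - B (ρ a) (ρ w))) (by rw [e]; norm_num)
  refine ⟨a, ha, b, hb, ?_⟩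
  rcases h.val a ha b hb with c | c | c <;> simp_all

/-- two distinct common orthogonal neighbours -/
theorem ss (h : Loc B Y ρ v) {a b s t : ι} (ha : a ∈ Y) (hb : b ∈ Y) (hs : s ∈ Y) (ht : t ∈ Y)
    (hab : B (ρ a) (ρ b) = 1 / 2) (h1 : B (ρ a) (ρ s) = 0) (h2 : B (ρ b) (ρ s) = 0)
    (h3 : B (ρ a) (ρ t) = 0) (h4 : B (ρ b) (ρ t) = 0) (hne : B (ρ s) (ρ t) ≠ 1) :
    B (ρ s) (ρ t) = 1 / 2 := by
  rcases h.val s hs t ht with c | c | c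
  · have := h.ortho3' ha hs ht hb h1 h3 c
    rw [h.symm (ρ b) (ρ a), hab, h2, h4] at this
    norm_num at this
  · exact c
  · exact absurd c hne

theorem ind (h : Loc B Y ρ v) {a b w : ι} (ha : a ∈ Y) (hb : b ∈ Y) (hw : w ∈ Y)
    (hab : B (ρ a) (ρ b) = 1 / 2) :
    (B (ρ a) (ρ w) = 0 ∧ B (ρ b) (ρ w) = 0) ∨
      (1 - 2 * B (ρ a) (ρ w)) * (1 - 2 * B (ρ b) (ρ w)) = 0 := by
  have f1 := fun h1 => h.one ha hw h1 (ρ b)
  have f2 := fun h1 => h.one hb hw h1 (ρ a)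
  rw [h.symm (ρ b) (ρ a), hab] at f1
  rw [hab] at f2
  rcases h.val a ha w hw with c | c | c <;> rcases h.val b hb w hw with d | d | d <;>
    simp_all

theorem cl (h : Loc B Y ρ v) {s w : ι} (hs : s ∈ Y) (hw : w ∈ Y) :
    B (ρ s) (ρ w) = 1 ∨ (B (ρ s) (ρ w) ≠ 1 ∧ B (ρ s) (ρ w) * (2 * B (ρ s) (ρ w) - 1) = 0) := by
  rcases h.val s hs w hw with c | c | c <;> rw [c] <;> norm_num

theorem exists_s (h : Loc B Y ρ v) {a b : ι} (ha : a ∈ Y) (hb : b ∈ Y)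
    (hab : B (ρ a) (ρ b) = 1 / 2) : ∃ s ∈ Y, ∃ t ∈ Y, ∃ u ∈ Y,
      B (ρ a) (ρ s) = 0 ∧ B (ρ b) (ρ s) = 0 ∧ B (ρ a) (ρ t) = 0 ∧ B (ρ b) (ρ t) = 0 ∧
      B (ρ a) (ρ u) = 0 ∧ B (ρ b) (ρ u) = 0 ∧ B (ρ s) (ρ t) = 1 / 2 ∧ B (ρ s) (ρ u) = 1 / 2 ∧
      B (ρ t) (ρ u) = 1 / 2 ∧ ∀ w ∈ Y, B (ρ a) (ρ w) = 0 → B (ρ b) (ρ w) = 0 →
        B (ρ s) (ρ w) = 1 ∨ B (ρ t) (ρ w) = 1 ∨ B (ρ u) (ρ w) = 1 := by
  have e0 := h.sind ha hb
  rw [hab] at e0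
  obtain ⟨s, hs, hne⟩ := exists_ne_zero_of_sum_ne_zero (s := Y)
    (f := fun w => (1 - 2 * B (ρ a) (ρ w)) * (1 - 2 * B (ρ b) (ρ w))) (by rw [e0]; norm_num)
  obtain ⟨as, bs⟩ := (h.ind ha hb hs hab).resolve_right hne
  obtain ⟨t, ht, hne⟩ := exists_ne_zero_of_sum_ne_zero (s := Y)
    (f := fun w => (1 - 2 * B (ρ a) (ρ w)) * (1 - 2 * B (ρ b) (ρ w)) -
      B (ρ s) (ρ w) * (2 * B (ρ s) (ρ w) - 1))
    (by rw [sum_sub_distrib, e0, h.scl hs]; norm_num)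
  have ⟨at', bt, st⟩ : B (ρ a) (ρ t) = 0 ∧ B (ρ b) (ρ t) = 0 ∧ B (ρ s) (ρ t) = 1 / 2 := by
    rcases h.cl hs ht with c | ⟨c, c'⟩
    · rw [h.one hs ht c (ρ a), h.one hs ht c (ρ b), as, bs, c] at hne
      norm_num at hne
    · rw [c', sub_zero] at hne
      obtain ⟨x, y⟩ := (h.ind ha hb ht hab).resolve_right hne
      exact ⟨x, y, h.ss ha hb hs ht hab as bs x y c⟩
  obtain ⟨u, hu, hne⟩ := exists_ne_zero_of_sum_ne_zero (s := Y)
    (f := fun w => (1 - 2 * B (ρ a) (ρ w)) * (1 - 2 * B (ρ b) (ρ w)) -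
      B (ρ s) (ρ w) * (2 * B (ρ s) (ρ w) - 1) - B (ρ t) (ρ w) * (2 * B (ρ t) (ρ w) - 1))
    (by rw [sum_sub_distrib, sum_sub_distrib, e0, h.scl hs, h.scl ht]; norm_num)
  have ⟨au, bu, su, tu⟩ : B (ρ a) (ρ u) = 0 ∧ B (ρ b) (ρ u) = 0 ∧ B (ρ s) (ρ u) = 1 / 2 ∧
      B (ρ t) (ρ u) = 1 / 2 := by
    rcases h.cl hs hu with c | ⟨c, c'⟩
    · rw [h.one hs hu c (ρ a), h.one hs hu c (ρ b), h.one hs hu c (ρ t), as, bs, c,
        h.symm (ρ t), st] at hne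
      norm_num at hne
    rcases h.cl ht hu with d | ⟨d, d'⟩
    · rw [h.one ht hu d (ρ a), h.one ht hu d (ρ b), h.one ht hu d (ρ s), at', bt, d, st] at hne
      norm_num at hne
    rw [c', d', sub_zero, sub_zero] at hne
    obtain ⟨x, y⟩ := (h.ind ha hb hu hab).resolve_right hne
    exact ⟨x, y, h.ss ha hb hs hu hab as bs x y c, h.ss ha hb ht hu hab at' bt x y d⟩
  refine ⟨s, hs, t, ht, u, hu, as, bs, at', bt, au, bu, st, su, tu, fun w hw aw bw => ?_⟩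
  have key := (sum_eq_zero_iff_of_nonneg (s := Y)
    (f := fun w => (1 - 2 * B (ρ a) (ρ w)) * (1 - 2 * B (ρ b) (ρ w)) -
      B (ρ s) (ρ w) * (2 * B (ρ s) (ρ w) - 1) - B (ρ t) (ρ w) * (2 * B (ρ t) (ρ w) - 1) -
      B (ρ u) (ρ w) * (2 * B (ρ u) (ρ w) - 1)) (fun w hw => by
    rcases h.cl hs hw with c | ⟨c, c'⟩
    · rw [h.one hs hw c (ρ a), h.one hs hw c (ρ b), h.one hs hw c (ρ t), h.one hs hw c (ρ u),
        as, bs, c, h.symm (ρ t), st, h.symm (ρ u), su]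
      norm_num
    rcases h.cl ht hw with d | ⟨d, d'⟩
    · rw [h.one ht hw d (ρ a), h.one ht hw d (ρ b), h.one ht hw d (ρ s), h.one ht hw d (ρ u),
        at', bt, d, st, h.symm (ρ u), tu]
      norm_num
    rcases h.cl hu hw with e | ⟨e, e'⟩
    · rw [h.one hu hw e (ρ a), h.one hu hw e (ρ b), h.one hu hw e (ρ s), h.one hu hw e (ρ t),
        au, bu, e, su, tu]
      norm_num
    rw [c', d', e']
    rcases h.ind ha hb hw hab with ⟨x, y⟩ | x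
    · rw [x, y]; norm_num
    · rw [x]; norm_num)).1
    (by rw [sum_sub_distrib, sum_sub_distrib, sum_sub_distrib, e0, h.scl hs, h.scl ht, h.scl hu]
        norm_num) w hw
  by_contra hc
  push Not at hc
  rw [((h.cl hs hw).resolve_left hc.1).2, ((h.cl ht hw).resolve_left hc.2.1).2,
    ((h.cl hu hw).resolve_left hc.2.2).2, aw, bw] at key
  norm_num at key

end Loc

theorem range_e1 {α β σ τ υ : ℚ} (h1 : α = 0 ∨ α = 1 / 2 ∨ α = 1) (h2 : β = 0 ∨ β = 1 / 2 ∨ β = 1)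
    (h3 : σ = 0 ∨ σ = 1 / 2 ∨ σ = 1) (h4 : τ = 0 ∨ τ = 1 / 2 ∨ τ = 1)
    (h5 : υ = 0 ∨ υ = 1 / 2 ∨ υ = 1)
    (a1 : α = 1 → β = 1 / 2 ∧ σ = 0 ∧ τ = 0 ∧ υ = 0) (b1 : β = 1 → α = 1 / 2 ∧ σ = 0 ∧ τ = 0 ∧ υ = 0)
    (s1 : σ = 1 → α = 0 ∧ β = 0 ∧ τ = 1 / 2 ∧ υ = 1 / 2)
    (t1 : τ = 1 → α = 0 ∧ β = 0 ∧ σ = 1 / 2 ∧ υ = 1 / 2)
    (u1 : υ = 1 → α = 0 ∧ β = 0 ∧ σ = 1 / 2 ∧ τ = 1 / 2)
    (c : α = 0 → β = 0 → σ = 1 ∨ τ = 1 ∨ υ = 1)
    (as : α = 0 → σ = 0 → τ = 1 / 2 ∧ υ = 1 / 2) (at' : α = 0 → τ = 0 → υ = 1 / 2)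
    (bs : β = 0 → σ = 0 → τ = 1 / 2 ∧ υ = 1 / 2) (bt : β = 0 → τ = 0 → υ = 1 / 2)
    (z : α = 1 / 2 → β = 1 / 2 → σ = 1 / 2 → τ = 1 / 2 → υ = 0) :
    0 ≤ α + β - 1 + 1 / 2 * (σ + τ + υ) ∧ α + β - 1 + 1 / 2 * (σ + τ + υ) ≤ 1 / 2 := by
  rcases h1 with rfl | rfl | rfl <;> rcases h2 with rfl | rfl | rfl <;>
    rcases h3 with rfl | rfl | rfl <;> rcases h4 with rfl | rfl | rfl <;>
    rcases h5 with rfl | rfl | rfl <;> first | (norm_num; done) | (exfalso; norm_num at *)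

theorem six {a1 a2 a3 a4 a5 a6 : ℚ} (h1 : -1 / 8 ≤ a1) (h2 : -1 / 8 ≤ a2) (h3 : -1 / 8 ≤ a3)
    (h4 : -1 / 8 ≤ a4) (h5 : -1 / 8 ≤ a5) (h6 : -1 / 8 ≤ a6)
    (hs : a1 + a2 + a3 + a4 + a5 + a6 = 1 / 2)
    (h45 : a4 + a5 = 0 ∨ a4 + a5 = 1 / 2) (h46 : a4 + a6 = 0 ∨ a4 + a6 = 1 / 2)
    (h56 : a5 + a6 = 0 ∨ a5 + a6 = 1 / 2) (h34 : a3 + a4 = 0 ∨ a3 + a4 = 1 / 2)
    (h24 : a2 + a4 = 0 ∨ a2 + a4 = 1 / 2) (h12 : a1 + a2 = 0 ∨ a1 + a2 = 1 / 2) :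
    a1 = 1 / 2 ∨ a2 = 1 / 2 ∨ a3 = 1 / 2 ∨ a4 = 1 / 2 ∨ a5 = 1 / 2 ∨ a6 = 1 / 2 := by
  rcases h45 with h45 | h45 <;> rcases h46 with h46 | h46 <;> rcases h56 with h56 | h56 <;>
    rcases h34 with h34 | h34 <;> rcases h24 with h24 | h24 <;> rcases h12 with h12 | h12 <;>
    first
    | (exfalso; linarith)
    | (left; linarith)
    | (right; left; linarith)
    | (right; right; left; linarith)
    | (right; right; right; left; linarith)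
    | (right; right; right; right; left; linarith)
    | (right; right; right; right; right; linarith)

theorem half_int {x : ℚ} (h : x = 0 ∨ x = 1 / 2 ∨ x = 1) : ∃ n : ℤ, x = n / 2 := by
  rcases h with rfl | rfl | rfl
  exacts [⟨0, by norm_num⟩, ⟨1, by norm_num⟩, ⟨2, by norm_num⟩]

theorem Loc.main (h : Loc B Y ρ v) : ∃ e : Fin 6 → E, Function.Injective e ∧ ∑ i, e i = v ∧
    ∀ f, (∃ i, e i = f) ↔ (B f v = 1 / 2 ∧ ∀ w ∈ Y, B f (ρ w) = 0 ∨ B f (ρ w) = 1 / 2) := by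
  obtain ⟨a, ha, b, hb, ab⟩ := h.exists_half
  obtain ⟨s, hs, t, ht, u, hu, as, bs, at', bt, au, bu, st, su, tu, hc⟩ := h.exists_s ha hb ab
  have ba := (h.symm _ _).trans ab
  have sa := (h.symm _ _).trans as
  have sb := (h.symm _ _).trans bs
  have ta := (h.symm _ _).trans at'
  have tb := (h.symm _ _).trans bt
  have ua := (h.symm _ _).trans au
  have ub := (h.symm _ _).trans bu
  have ts := (h.symm _ _).trans st
  have us := (h.symm _ _).trans su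
  have ut := (h.symm _ _).trans tu
  have aa := h.rr a ha
  have bb := h.rr b hb
  have ss := h.rr s hs
  have tt := h.rr t ht
  have uu := h.rr u hu
  have av := h.rv a ha
  have bv := h.rv b hb
  have sv := h.rv s hs
  have tv := h.rv t ht
  have uv := h.rv u hu
  have va := h.vr ha
  have vb := h.vr hb
  have vs := h.vr hs
  have vt := h.vr ht
  have vu := h.vr hu
  have vv := h.vv
  obtain ⟨k, hk⟩ : ∃ k : E, k = (1 / 2 : ℚ) • (ρ s + ρ t + ρ u) := ⟨_, rfl⟩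
  obtain ⟨e, he⟩ : ∃ e : Fin 6 → E, e = ![ρ a + ρ b - v + k, v - k - ρ b, v - k - ρ a, k - ρ s,
    k - ρ t, k - ρ u] := ⟨_, rfl⟩
  have G : ∀ i j, B (e i) (e j) = if i = j then 1 / 2 else 0 := by
    intro i j
    fin_cases i <;> fin_cases j <;> simp [he, hk, ab, as, bs, at', bt, au, bu, st, su, tu, ba, sa,
      sb, ta, tb, ua, ub, ts, us, ut, aa, bb, ss, tt, uu, av, bv, sv, tv, uv, va, vb, vs, vt, vu,
      vv] <;> norm_num
  have Gv : ∀ i, B (e i) v = 1 / 2 := by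
    intro i
    fin_cases i <;> simp [he, hk, av, bv, sv, tv, uv, vv] <;> norm_num
  have Gn : ∀ i, B (e i) (e i) = 1 / 2 := fun i => by rw [G, if_pos rfl]
  have e0 : ∀ w ∈ Y, B (e 0) (ρ w) = B (ρ a) (ρ w) + B (ρ b) (ρ w) - 1 +
      1 / 2 * (B (ρ s) (ρ w) + B (ρ t) (ρ w) + B (ρ u) (ρ w)) := by
    intro w hw
    simp [he, hk, h.vr hw]
    ring
  have v0 : ∀ w ∈ Y, B (e 0) (ρ w) = 0 ∨ B (e 0) (ρ w) = 1 / 2 := by
    refine h.var1 (Gn 0) (Gv 0) fun w hw => ?_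
    rw [e0 w hw]
    refine range_e1 (h.val a ha w hw) (h.val b hb w hw) (h.val s hs w hw) (h.val t ht w hw)
      (h.val u hu w hw) (fun c => ?_) (fun c => ?_) (fun c => ?_) (fun c => ?_) (fun c => ?_)
      (hc w hw) (fun c d => ?_) (fun c d => ?_) (fun c d => ?_) (fun c d => ?_)
      (fun c d c' d' => ?_)
    · simp only [h.one ha hw c, ba, sa, ta, ua, and_self]
    · simp only [h.one hb hw c, ab, sb, tb, ub, and_self]
    · simp only [h.one hs hw c, as, bs, ts, us, and_self]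
    · simp only [h.one ht hw c, at', bt, st, ut, and_self]
    · simp only [h.one hu hw c, au, bu, su, tu, and_self]
    · have x := h.ortho3' ha hs hw ht as c d
      have y := h.ortho3' ha hs hw hu as c d
      rw [ta, ts] at x
      rw [ua, us] at y
      constructor <;> linarith
    · have y := h.ortho3' ha ht hw hu at' c d
      rw [ua, ut] at y
      linarith
    · have x := h.ortho3' hb hs hw ht bs c d
      have y := h.ortho3' hb hs hw hu bs c d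
      rw [tb, ts] at x
      rw [ub, us] at y
      constructor <;> linarith
    · have y := h.ortho3' hb ht hw hu bt c d
      rw [ub, ut] at y
      linarith
    · have x : ρ a + ρ b + ρ s + ρ t - v = ρ w := by
        refine h.eq_of (c := 1) ?_ (h.rr w hw) ?_
        · simp [ab, as, bs, at', bt, st, ba, sa, sb, ta, tb, ts, aa, bb, ss, tt, av, bv, sv, tv,
            va, vb, vs, vt, vv]
          norm_num
        · simp [c, d, c', d', h.vr hw]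
          norm_num
      rw [← x]
      simp [ua, ub, us, ut, uv]
      norm_num
  have vi : ∀ i, ∀ w ∈ Y, B (e i) (ρ w) = 0 ∨ B (e i) (ρ w) = 1 / 2 := by
    intro i
    refine h.var2 (Gn i) (Gv i) fun w hw => ?_
    obtain ⟨n0, h0⟩ := half_int (x := B (e 0) (ρ w)) (by rcases v0 w hw with c | c <;> simp [c])
    obtain ⟨na, xa⟩ := half_int (h.val a ha w hw)
    obtain ⟨nb, xb⟩ := half_int (h.val b hb w hw)
    obtain ⟨ns, xs⟩ := half_int (h.val s hs w hw)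
    obtain ⟨nt, xt⟩ := half_int (h.val t ht w hw)
    obtain ⟨nu, xu⟩ := half_int (h.val u hu w hw)
    have hkw : B k (ρ w) = (n0 + 2 - na - nb) / 2 := by
      have : B (e 0) (ρ w) = B (ρ a) (ρ w) + B (ρ b) (ρ w) - 1 + B k (ρ w) := by
        simp [he, h.vr hw]
      linarith
    fin_cases i
    · exact ⟨n0, h0⟩
    · exact ⟨na - n0, by simp [he, h.vr hw, hkw, xb]; ring⟩
    · exact ⟨nb - n0, by simp [he, h.vr hw, hkw, xa]; ring⟩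
    · exact ⟨n0 + 2 - na - nb - ns, by simp [he, hkw, xs]; ring⟩
    · exact ⟨n0 + 2 - na - nb - nt, by simp [he, hkw, xt]; ring⟩
    · exact ⟨n0 + 2 - na - nb - nu, by simp [he, hkw, xu]; ring⟩
  refine ⟨e, fun i j hij => ?_, ?_, fun f => ⟨?_, ?_⟩⟩
  · by_contra hne
    have := G i j
    rw [if_neg hne, hij, Gn] at this
    norm_num at this
  · simp only [he, hk, Fin.sum_univ_six]
    simp
    module
  · rintro ⟨i, rfl⟩
    exact ⟨Gv i, vi i⟩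
  · rintro ⟨f1, f2⟩
    have ge := fun i => h.ge_of f1 f2 (Gv i) (vi i)
    obtain ⟨p, hp, ep⟩ := h.line ha hs as
    obtain ⟨q, hq, eq⟩ := h.line hb hs bs
    have fk : B f k = 1 / 2 * (B f (ρ s) + B f (ρ t) + B f (ρ u)) := by
      simp [hk]
      ring
    have x0 : B f (e 0) = B f (ρ a) + B f (ρ b) - 1 / 2 + B f k := by simp [he, f1]
    have x1 : B f (e 1) = 1 / 2 - B f k - B f (ρ b) := by simp [he, f1]
    have x2 : B f (e 2) = 1 / 2 - B f k - B f (ρ a) := by simp [he, f1]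
    have x3 : B f (e 3) = B f k - B f (ρ s) := by simp [he]
    have x4 : B f (e 4) = B f k - B f (ρ t) := by simp [he]
    have x5 : B f (e 5) = B f k - B f (ρ u) := by simp [he]
    have xp : B f (ρ p) = 1 / 2 - B f (ρ a) - B f (ρ s) := by simp [ep, f1]
    have xq : B f (ρ q) = 1 / 2 - B f (ρ b) - B f (ρ s) := by simp [eq, f1]
    have fin : ∀ i, B f (e i) = 1 / 2 → ∃ i, e i = f := fun i hi =>
      ⟨i, (h.eq_of (h.norm_half f1 f2) (Gn i) hi).symm⟩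
    rcases six (ge 0) (ge 1) (ge 2) (ge 3) (ge 4) (ge 5) (by linarith)
      ((f2 u hu).imp (fun c => by linarith) (fun c => by linarith))
      ((f2 t ht).imp (fun c => by linarith) (fun c => by linarith))
      ((f2 s hs).imp (fun c => by linarith) (fun c => by linarith))
      ((f2 p hp).imp (fun c => by linarith) (fun c => by linarith))
      ((f2 q hq).imp (fun c => by linarith) (fun c => by linarith))
      ((f2 a ha).imp (fun c => by linarith) (fun c => by linarith)) with c | c | c | c | c | c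
    exacts [fin _ c, fin _ c, fin _ c, fin _ c, fin _ c, fin _ c]

end H9.S77
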