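import Cfsg.Agent.H76.HSGraph
import Cfsg.Agent.H9.Srg77Loc

/-! Uniqueness of the strongly regular graph (77, 16, 0, 4) by its Euclidean representation. -/

set_option autoImplicit false
set_option linter.unusedSectionVars false

namespace H9.S77

open Finset Cfsg H76

variable {V : Type*} [Fintype V] [DecidableEq V] {G : SimpleGraph V} [DecidableRel G.Adj]

def vv (G : SimpleGraph V) [DecidableRel G.Adj] (u : V) : V → ℚ :=
  fun w => if w = u then 3 else if G.Adj u w then 0 else 1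

def ip (V : Type*) [Fintype V] : (V → ℚ) →ₗ[ℚ] (V → ℚ) →ₗ[ℚ] ℚ :=
  LinearMap.mk₂ ℚ (fun φ ψ => (∑ w, φ w * ψ w - 5 / 441 * (∑ w, φ w) * ∑ w, ψ w) / 8)
    (fun a b c => by simp only [Pi.add_apply, add_mul, sum_add_distrib]; ring)
    (fun a b c => by simp only [Pi.smul_apply, smul_eq_mul, mul_assoc, ← mul_sum]; ring)
    (fun a b c => by simp only [Pi.add_apply, mul_add, sum_add_distrib]; ring)
    (fun a b c => by
      simp only [Pi.smul_apply, smul_eq_mul, mul_left_comm _ a, ← mul_sum]; ring)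

theorem ip_apply (φ ψ : V → ℚ) :
    ip V φ ψ = (∑ w, φ w * ψ w - 5 / 441 * (∑ w, φ w) * ∑ w, ψ w) / 8 := rfl

theorem ip_symm (φ ψ : V → ℚ) : ip V φ ψ = ip V ψ φ := by
  simp only [ip_apply, mul_comm (φ _)]; ring

theorem ip_ge (hV : Fintype.card V = 77) (φ : V → ℚ) : (∑ w, φ w ^ 2) / 63 ≤ ip V φ φ := by
  have := sq_sum_le_card_mul_sum_sq (s := (univ : Finset V)) (f := φ)
  rw [card_univ, hV] at this
  simp only [ip_apply, ← sq]
  push_cast at this
  nlinarith

theorem ip_nonneg (hV : Fintype.card V = 77) (φ : V → ℚ) : 0 ≤ ip V φ φ :=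
  le_trans (by positivity) (ip_ge hV φ)

theorem ip_pd (hV : Fintype.card V = 77) (φ : V → ℚ) (h : ip V φ φ = 0) : φ = 0 := by
  have h1 := ip_ge hV φ
  have h2 : 0 ≤ ∑ w, φ w ^ 2 := by positivity
  have h3 : ∑ w, φ w ^ 2 = 0 := by linarith
  funext w
  simpa using (sum_eq_zero_iff_of_nonneg (fun w _ => sq_nonneg (φ w))).1 h3 w (mem_univ w)

def W (G : SimpleGraph V) [DecidableRel G.Adj] : Submodule ℚ (V → ℚ) where
  carrier := {φ | ∀ u, ∑ w ∈ univ.filter (fun w => G.Adj u w), φ w = -6 * φ u + 2 / 7 * ∑ w, φ w}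
  add_mem' := fun {a b} ha hb u => by
    simp only [Pi.add_apply, sum_add_distrib, ha u, hb u]; ring
  zero_mem' := fun u => by simp
  smul_mem' := fun c a ha u => by
    simp only [Pi.smul_apply, smul_eq_mul, ← mul_sum, ha u]; ring

theorem vv_symm (u w : V) : vv G u w = vv G w u := by
  simp only [vv, eq_comm (a := w), G.adj_comm w]

theorem sum_mul_vv (C : Finset V) (φ : V → ℚ) (z : V) : ∑ c ∈ C, φ c * vv G z c =
    (if z ∈ C then 2 * φ z else 0) - ∑ c ∈ C.filter (fun c => G.Adj z c), φ c + ∑ c ∈ C, φ c := by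
  rw [← sum_ite_eq' C z (fun c => 2 * φ c), sum_filter, ← sum_sub_distrib, ← sum_add_distrib]
  refine sum_congr rfl fun c _ => ?_
  by_cases h : c = z
  · subst h; simp [vv]; ring
  · by_cases h' : G.Adj z c <;> simp [vv, h, h']

theorem sum_vv (C : Finset V) (z : V) : ∑ c ∈ C, vv G z c =
    (if z ∈ C then 2 else 0) - ((C.filter (fun c => G.Adj z c)).card : ℚ) + C.card := by
  simpa using sum_mul_vv (G := G) C (fun _ => 1) z

theorem cardV (h : SRG G 77 16 0 4) : Fintype.card V = 77 := by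
  rw [← Nat.card_eq_fintype_card, h.card]

theorem sum_vv_univ (h : SRG G 77 16 0 4) (z : V) : ∑ c, vv G z c = 63 := by
  rw [sum_vv, h.deg', card_univ, cardV h]; norm_num

theorem ip_vv (h : SRG G 77 16 0 4) {φ : V → ℚ} (hφ : φ ∈ W G) (u : V) :
    ip V φ (vv G u) = φ u := by
  rw [ip_apply, sum_mul_vv, hφ u, sum_vv_univ h]; simp; ring

theorem ip_j (h : SRG G 77 16 0 4) (φ : V → ℚ) : ip V φ (fun _ => 3) = (∑ w, φ w) / 21 := by
  rw [ip_apply, ← sum_mul, sum_const, card_univ, cardV h]; simp; ring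

theorem j_mem (h : SRG G 77 16 0 4) : (fun _ => 3 : V → ℚ) ∈ W G := fun u => by
  rw [sum_const, sum_const, h.deg', card_univ, cardV h]; norm_num

theorem vv_mem (h : SRG G 77 16 0 4) (x : V) : vv G x ∈ W G := fun u => by
  rw [sum_vv, sum_vv_univ h, h.deg', filter_filter]
  by_cases h1 : u = x
  · subst h1
    simp only [and_self, h.deg']
    simp [vv]; norm_num
  by_cases h2 : G.Adj u x
  · rw [filter_eq_empty_iff (p := fun a => G.Adj u a ∧ G.Adj x a).2
      (fun w _ hw => h.no_triangle h2 hw.1 hw.2)]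
    simp [vv, h1, h2, h2.symm]; norm_num
  · rw [h.nadj' h1 h2]
    have h3 : ¬ G.Adj x u := fun c => h2 c.symm
    simp [vv, h1, h2, h3]; norm_num

def U (G : SimpleGraph V) [DecidableRel G.Adj] (x : V) : Submodule ℚ (V → ℚ) where
  carrier := {φ | φ ∈ W G ∧ ∀ c, G.Adj x c → φ c = 0}
  add_mem' := fun {a b} ha hb => ⟨add_mem ha.1 hb.1, fun c hc => by simp [ha.2 c hc, hb.2 c hc]⟩
  zero_mem' := ⟨zero_mem _, fun _ _ => rfl⟩
  smul_mem' := fun c a ha => ⟨Submodule.smul_mem _ c ha.1, fun d hd => by simp [ha.2 d hd]⟩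

theorem sum_U {x : V} {φ : V → ℚ} (hφ : φ ∈ U G x) : ∑ w, φ w = 21 * φ x := by
  have := hφ.1 x
  rw [sum_eq_zero (fun w hw => hφ.2 w (mem_filter.1 hw).2)] at this
  linarith

def cn (G : SimpleGraph V) [DecidableRel G.Adj] (x y : V) : Finset V :=
  univ.filter (fun w => G.Adj x w ∧ G.Adj y w)

def r (G : SimpleGraph V) [DecidableRel G.Adj] (x y : V) : V → ℚ :=
  vv G x + vv G y - (fun _ => 3) + (1 / 2 : ℚ) • ∑ c ∈ cn G x y, vv G c

theorem r_apply (h : SRG G 77 16 0 4) {x y : V} (h1 : y ≠ x) (h2 : ¬ G.Adj x y) (z : V) :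
    r G x y z = vv G x z + vv G y z - 1 + (if z ∈ cn G x y then 1 else 0) -
      (((cn G x y).filter (fun c => G.Adj z c)).card : ℚ) / 2 := by
  have e : (cn G x y).card = 4 := h.nadj' h1.symm h2
  simp only [r, Pi.add_apply, Pi.sub_apply, Pi.smul_apply, Finset.sum_apply, smul_eq_mul,
    vv_symm (G := G) _ z, sum_vv, e]
  split_ifs <;> push_cast <;> ring

theorem r_mem (h : SRG G 77 16 0 4) {x y : V} (h1 : y ≠ x) (h2 : ¬ G.Adj x y) :
    r G x y ∈ U G x := by
  refine ⟨add_mem (sub_mem (add_mem (vv_mem h x) (vv_mem h y)) (j_mem h))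
    (Submodule.smul_mem _ _ (Submodule.sum_mem _ fun c _ => vv_mem h c)), fun c hc => ?_⟩
  rw [r_apply h h1 h2, filter_eq_empty_iff.2
    (fun w hw hcw => h.no_triangle hc (mem_filter.1 hw).2.1 hcw)]
  have h3 : c ≠ y := fun e => h2 (e ▸ hc)
  by_cases h4 : G.Adj y c <;> simp [vv, cn, hc, hc.ne', h3, h4]

theorem ip_r (h : SRG G 77 16 0 4) {x y : V} {φ : V → ℚ} (hφ : φ ∈ U G x) :
    ip V φ (r G x y) = φ y := by
  simp only [r, map_add, map_sub, map_smul, map_sum, ip_vv h hφ.1, ip_j h, sum_U hφ]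
  rw [sum_eq_zero (fun c hc => hφ.2 c (mem_filter.1 hc).2.1)]
  simp

theorem r_x (h : SRG G 77 16 0 4) {x y : V} (h1 : y ≠ x) (h2 : ¬ G.Adj x y) : r G x y x = 1 := by
  have e : (cn G x y).card = 4 := h.nadj' h1.symm h2
  have h3 : ¬ G.Adj y x := fun c => h2 c.symm
  rw [r_apply h h1 h2, filter_true_of_mem (fun w hw => (mem_filter.1 hw).2.1), e]
  simp [vv, cn, h1.symm, h3]; norm_num

theorem r_y (h : SRG G 77 16 0 4) {x y : V} (h1 : y ≠ x) (h2 : ¬ G.Adj x y) : r G x y y = 1 := by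
  have e : (cn G x y).card = 4 := h.nadj' h1.symm h2
  rw [r_apply h h1 h2, filter_true_of_mem (fun w hw => (mem_filter.1 hw).2.2), e]
  simp [vv, cn, h1, h2]; norm_num

theorem vv_U (h : SRG G 77 16 0 4) (x : V) : vv G x ∈ U G x :=
  ⟨vv_mem h x, fun c hc => by simp [vv, hc, hc.ne']⟩

theorem r_val (h : SRG G 77 16 0 4) {x y z : V} (h1 : y ≠ x) (h2 : ¬ G.Adj x y) (h3 : z ≠ x)
    (h4 : ¬ G.Adj x z) : r G x y z = 0 ∨ r G x y z = 1 / 2 ∨ r G x y z = 1 := by
  by_cases h5 : z = y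
  · rw [h5, r_y h h1 h2]; simp
  have hb : -1 / 3 ≤ r G x y z := by
    have := ip_nonneg (cardV h) (r G x y + r G x z - (2 / 3 : ℚ) • vv G x)
    have my := r_mem h h1 h2
    have mz := r_mem h h3 h4
    have e : r G x z y = r G x y z := by rw [← ip_r h mz, ip_symm, ip_r h my]
    simp only [map_add, map_sub, map_smul, LinearMap.add_apply, LinearMap.sub_apply,
      LinearMap.smul_apply, smul_eq_mul, ip_r h my, ip_r h mz, ip_r h (vv_U h x), ip_vv h my.1,
      ip_vv h mz.1, ip_vv h (vv_mem h x), r_x h h1 h2, r_x h h3 h4, r_y h h1 h2, r_y h h3 h4,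
      e] at this
    simp only [vv, h1, h2, h3, h4, if_true, if_false] at this
    linarith
  rw [r_apply h h1 h2] at hb ⊢
  by_cases h6 : G.Adj y z
  · rw [filter_eq_empty_iff.2 (fun w hw hzw => h.no_triangle h6 (mem_filter.1 hw).2.2 hzw)]
    simp [vv, cn, h3, h4, h5, h6]
  · generalize ((cn G x y).filter (fun c => G.Adj z c)).card = n at hb ⊢
    simp only [vv, cn, h3, h4, h5, h6, if_false, mem_filter, and_false] at hb ⊢
    have : n < 3 := by
      have : (n : ℚ) < 3 := by linarith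
      exact_mod_cast this
    interval_cases n <;> norm_num

theorem exists_six (h : SRG G 77 16 0 4) (x : V) : ∃ e : Fin 6 → (V → ℚ), Function.Injective e ∧
    ∑ i, e i = vv G x ∧ ∀ f, (∃ i, e i = f) ↔
      (f ∈ W G ∧ (∀ w, f w = 0 ∨ f w = 1 / 2) ∧ ∑ w, f w = 21 / 2 ∧ f x = 1 / 2) := by
  let Y : Finset V := univ.filter (fun y => y ≠ x ∧ ¬ G.Adj x y)
  have hY : ∀ {y}, y ∈ Y → y ≠ x ∧ ¬ G.Adj x y := fun hy => (mem_filter.1 hy).2
  let ρ : V → U G x := fun y => if hy : y ∈ Y then ⟨r G x y, r_mem h (hY hy).1 (hY hy).2⟩ else 0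
  have hρ : ∀ {y}, y ∈ Y → (ρ y : V → ℚ) = r G x y := fun hy => by simp only [ρ, dif_pos hy]
  let B : U G x →ₗ[ℚ] U G x →ₗ[ℚ] ℚ := (ip V).compl₁₂ (U G x).subtype (U G x).subtype
  have hB : ∀ a b, B a b = ip V a.1 b.1 := fun _ _ => rfl
  let v : U G x := ⟨vv G x, vv_U h x⟩
  have Bv : ∀ a, B a v = a.1 x := fun a => ip_vv h a.2.1 x
  have Bρ : ∀ a, ∀ y ∈ Y, B a (ρ y) = a.1 y := fun a y hy => by rw [hB, hρ hy, ip_r h a.2]
  have L : Loc B Y ρ v :=
    { symm := fun a b => ip_symm _ _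
      pd := fun a ha => Subtype.ext (ip_pd (cardV h) _ ha)
      vv := by rw [Bv]; simp [v, vv]
      rv := fun y hy => by rw [Bv, hρ hy, r_x h (hY hy).1 (hY hy).2]
      rr := fun y hy => by rw [Bρ _ y hy, hρ hy, r_y h (hY hy).1 (hY hy).2]
      val := fun y hy z hz => by
        rw [Bρ _ z hz, hρ hy]; exact r_val h (hY hy).1 (hY hy).2 (hY hz).1 (hY hz).2
      frame := fun a b => by
        rw [sum_congr rfl (fun w hw => by rw [Bρ a w hw, Bρ b w hw]), Bv, Bv, hB, ip_apply,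
          sum_U a.2, sum_U b.2]
        have e : ∑ w, a.1 w * b.1 w = a.1 x * b.1 x + ∑ w ∈ Y, a.1 w * b.1 w := by
          rw [← sum_ite_eq' univ x (fun w => a.1 w * b.1 w) |>.trans (if_pos (mem_univ x)),
            sum_filter, ← sum_add_distrib]
          refine sum_congr rfl fun w _ => ?_
          by_cases c : w = x
          · simp [c]
          · by_cases d : G.Adj x w
            · simp [c, d, a.2.2 w d]
            · simp [c, d]
        rw [e]; ring }
  obtain ⟨e, e1, e2, e3⟩ := L.main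
  refine ⟨fun i => (e i).1, fun i j hij => e1 (Subtype.ext hij), ?_, fun f => ⟨?_, ?_⟩⟩
  · have := congrArg Subtype.val e2
    simpa using this
  · rintro ⟨i, rfl⟩
    obtain ⟨c, d⟩ := (e3 (e i)).1 ⟨i, rfl⟩
    rw [Bv] at c
    refine ⟨(e i).2.1, fun w => ?_, by rw [sum_U (e i).2, c]; norm_num, c⟩
    by_cases hw : w ∈ Y
    · have := d w hw
      rwa [Bρ _ w hw] at this
    by_cases hx : w = x
    · rw [hx]; exact Or.inr c
    · exact Or.inl ((e i).2.2 w (by simpa [Y, hx] using hw))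
  · rintro ⟨f1, f2, f3, f4⟩
    have f5 : f ∈ U G x := ⟨f1, fun c hc => by
      have := f1 x
      rw [f3, f4] at this
      exact (sum_eq_zero_iff_of_nonneg (fun w _ => by
        rcases f2 w with a | a <;> rw [a] <;> norm_num)).1 (this.trans (by norm_num)) c
        (mem_filter.2 ⟨mem_univ c, hc⟩)⟩
    obtain ⟨i, hi⟩ := (e3 ⟨f, f5⟩).2 ⟨by rw [Bv]; exact f4, fun w hw => by
      rw [Bρ _ w hw]; exact f2 w⟩
    exact ⟨i, congrArg Subtype.val hi⟩

def χ (C : Finset V) : V → ℚ := fun w => if w ∈ C then 1 / 2 else 0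

theorem sum_χ (C : Finset V) : ∑ w, χ C w = C.card / 2 := by
  simp [χ, ← sum_filter]; ring

theorem χ_inj : Function.Injective (χ : Finset V → V → ℚ) := fun C D hCD => by
  ext w
  have := congrFun hCD w
  by_cases c : w ∈ C <;> by_cases d : w ∈ D <;> simp_all [χ]

def Pt (G : SimpleGraph V) [DecidableRel G.Adj] : Type _ := {C : Finset V // χ C ∈ W G ∧ C.card = 21}

noncomputable instance : Fintype (Pt G) := by
  classical
  unfold Pt
  infer_instance

instance : DecidableEq (Pt G) := by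
  unfold Pt
  infer_instance

noncomputable def blk (G : SimpleGraph V) [DecidableRel G.Adj] (x : V) : Finset (Pt G) :=
  univ.filter (fun C => x ∈ C.1)

theorem card_inter (h : SRG G 77 16 0 4) (x y : V) :
    ((blk G x ∩ blk G y).card : ℚ) = 2 * vv G x y := by
  obtain ⟨e, e1, e2, e3⟩ := exists_six h x
  have hχ : ∀ i, χ (univ.filter (fun w => e i w = 1 / 2)) = e i := fun i => by
    funext w
    rcases ((e3 _).1 ⟨i, rfl⟩).2.1 w with a | a <;> simp [χ, a]
  let g : Fin 6 → Pt G := fun i => ⟨univ.filter (fun w => e i w = 1 / 2), by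
    rw [hχ]; exact ((e3 _).1 ⟨i, rfl⟩).1, by
      have := sum_χ (univ.filter (fun w => e i w = 1 / 2))
      rw [hχ, ((e3 _).1 ⟨i, rfl⟩).2.2.1] at this
      have : ((univ.filter (fun w => e i w = 1 / 2)).card : ℚ) = 21 := by linarith
      exact_mod_cast this⟩
  have hg : ∀ i, χ (g i).1 = e i := hχ
  have s : ∑ i, χ (g i).1 y = ∑ C ∈ blk G x, χ C.1 y := by
    refine sum_bij (fun i _ => g i) (fun i _ => ?_) (fun i _ j _ hij => e1 ?_) (fun C hC => ?_)
      (fun _ _ => rfl)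
    · exact mem_filter.2 ⟨mem_univ _, mem_filter.2 ⟨mem_univ _, ((e3 _).1 ⟨i, rfl⟩).2.2.2⟩⟩
    · rw [← hg, ← hg, hij]
    · obtain ⟨i, hi⟩ := (e3 (χ C.1)).2 ⟨C.2.1, fun w => by
        by_cases c : w ∈ C.1 <;> simp [χ, c], by rw [sum_χ, C.2.2]; norm_num,
        if_pos (mem_filter.1 hC).2⟩
      exact ⟨i, mem_univ _, Subtype.ext (χ_inj ((hg i).trans hi))⟩
  simp only [hg] at s
  rw [← e2, Finset.sum_apply, s, blk, blk, ← filter_and, ← filter_filter]
  simp [χ, ← sum_filter]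
  ring

theorem card_blk (h : SRG G 77 16 0 4) (x : V) : (blk G x).card = 6 := by
  have := card_inter h x x
  rw [inter_self] at this
  simp only [vv, if_true] at this
  exact_mod_cast this

theorem card_Pt (h : SRG G 77 16 0 4) : Fintype.card (Pt G) = 22 := by
  have e := sum_card_filter_comm (univ : Finset V) (univ : Finset (Pt G)) (fun x C => x ∈ C.1)
  have e1 : ∀ x, (univ.filter (fun C : Pt G => x ∈ C.1)).card = 6 := card_blk h
  have e2 : ∀ C : Pt G, (univ.filter (fun x => x ∈ C.1)).card = 21 := fun C => by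
    rw [filter_mem_eq_inter, univ_inter, C.2.2]
  simp only [e1, e2, sum_const, card_univ, cardV h, smul_eq_mul] at e
  omega

theorem inter_lt (h : SRG G 77 16 0 4) {x y : V} (hne : x ≠ y) : (blk G x ∩ blk G y).card < 3 := by
  have := card_inter h x y
  simp only [vv, hne.symm, if_false] at this
  have : ((blk G x ∩ blk G y).card : ℚ) < 3 := by split_ifs at this <;> linarith
  exact_mod_cast this

theorem blk_inj (h : SRG G 77 16 0 4) : Function.Injective (blk G) := fun x y hxy => by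
  by_contra hne
  have := inter_lt h hne
  rw [← hxy, inter_self, card_blk h] at this
  omega

theorem steiner (h : SRG G 77 16 0 4) : IsSteinerSystem 3 6 (Set.range (blk G)) := by
  refine steiner_of_count ?_ ?_ ?_
  · rintro _ ⟨x, rfl⟩; exact card_blk h x
  · rintro _ ⟨x, rfl⟩ _ ⟨y, rfl⟩ hne
    exact inter_lt h fun e => hne (e ▸ rfl)
  · rw [Set.ncard_range_of_injective (blk_inj h), h.card, card_Pt h]; rfl

noncomputable def isoB (h : SRG G 77 16 0 4) : G ≃g blockGraph (Set.range (blk G)) where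
  toEquiv := Equiv.ofInjective _ (blk_inj h)
  map_rel_iff' := by
    intro x y
    rw [blockGraph_adj (steiner h), Equiv.ofInjective_apply, Equiv.ofInjective_apply,
      disjoint_iff_inter_eq_empty, ← card_eq_zero, ← Nat.cast_eq_zero (R := ℚ), card_inter h]
    by_cases c : y = x
    · simp [vv, c]
    · by_cases d : G.Adj x y <;> simp [vv, c, d]

theorem unique {V' : Type*} [Fintype V'] [DecidableEq V'] {H : SimpleGraph V'}
    [DecidableRel H.Adj] (hG : SRG G 77 16 0 4) (hH : SRG H 77 16 0 4) : Nonempty (G ≃g H) := by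
  obtain ⟨x⟩ : Nonempty (Fin 3 ↪ Pt G) :=
    Function.Embedding.nonempty_of_card_le (by rw [card_Pt hG]; decide)
  obtain ⟨y⟩ : Nonempty (Fin 3 ↪ Pt H) :=
    Function.Embedding.nonempty_of_card_le (by rw [card_Pt hH]; decide)
  obtain ⟨f, -, hf⟩ := steiner22_iso (card_Pt hG) (card_Pt hH) (steiner hG) (steiner hH) x y
  let e : blockGraph (Set.range (blk G)) ≃g blockGraph (Set.range (blk H)) :=
    { toEquiv := blockEquiv f hf
      map_rel_iff' := by
        intro b c
        rw [blockGraph_adj (steiner hG), blockGraph_adj (steiner hH)]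
        exact disjoint_image f.injective }
  exact ⟨((isoB hG).trans e).trans (isoB hH).symm⟩

end H9.S77
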